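import Cfsg.Agent.Lib.TIB.Defs
import Cfsg.Agent.Lib.PGroup.Basic

/-! S1779: basic facts on the family `𝓑` (owner helper4). -/

set_option autoImplicit false

namespace Cfsg.Lib.TIB
open Subgroup Cfsg.Lib Cfsg.Lib.FT Cfsg.Lib.Bender
open scoped commutatorElement

variable {G : Type*} [Group G] [Finite G] {𝓑 : Set (Subgroup G)}

variable {B B' : Subgroup G}

omit [Finite G] in
theorem Fam.mem_Om (F : Fam 𝓑) (hB : B ∈ 𝓑) {x : G} : x ∈ Om B ↔ x ∈ B ∧ x * x = 1 :=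
  ⟨fun h => ⟨h.1, h.2.2⟩, fun h => ⟨h.1, F.comm B hB h.1, h.2⟩⟩

omit [Finite G] in
theorem Fam.le_N (F : Fam 𝓑) (hB : B ∈ 𝓑) : B ≤ N[B] := (F.comm B hB).trans (centralizer_le_normalizer _)

omit [Finite G] in
theorem Fam.cm (F : Fam 𝓑) (hB : B ∈ 𝓑) {x y : G} (hx : x ∈ B) (hy : y ∈ B) : Commute x y := cen (F.comm B hB hx) hy

omit [Finite G] in
/-- TI: `g` moving a nontrivial element of `B` into `B'` moves `B` to `B'` -/
theorem Fam.cj_eq (F : Fam 𝓑) (hB : B ∈ 𝓑) (hB' : B' ∈ 𝓑) {g b : G} (hb : b ∈ B) (h1 : b ≠ 1)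
    (h : g * b * g⁻¹ ∈ B') : g •ᶜ B = B' :=
  F.ti _ (F.conj B hB g) _ hB' _ (cj_mem g hb) h (by simpa [mul_inv_eq_iff_eq_mul] using h1)

omit [Finite G] in
theorem Fam.N_of_comm (F : Fam 𝓑) (hB : B ∈ 𝓑) {g b : G} (hb : b ∈ B) (h1 : b ≠ 1) (h : Commute g b) : g ∈ N[B] :=
  cj_eq_iff.1 (F.cj_eq hB hB hb h1 (by rw [h.eq, mul_inv_cancel_right]; exact hb))

omit [Finite G] in
theorem Fam.eq_one (F : Fam 𝓑) (hB : B ∈ 𝓑) (hB' : B' ∈ 𝓑) (ne : B ≠ B') {x : G} (hx : x ∈ B) (hx' : x ∈ B') :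
    x = 1 := by_contra fun h => ne (F.ti B hB B' hB' x hx hx' h)

omit [Finite G] in
theorem Fam.Om_ne (F : Fam 𝓑) (hB : B ∈ 𝓑) : ∃ v ∈ Om B, v ≠ 1 :=
  let ⟨u, hu, _, _, h, _⟩ := F.four B hB; ⟨u, hu, h⟩

omit [Finite G] in
theorem Fam.NOm (F : Fam 𝓑) (hB : B ∈ 𝓑) {g : G} (h : g ∈ N[Om B]) : g ∈ N[B] :=
  let ⟨v, hv, h1⟩ := F.Om_ne hB; cj_eq_iff.1 (F.cj_eq hB hB hv.1 h1 (nm h hv).1)

/-- an element of order 4 -/
theorem Fam.ex4' (F : Fam 𝓑) (hB : B ∈ 𝓑) : ∃ x ∈ B, x * x ≠ 1 ∧ x * x ∈ Om B := by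
  classical
  obtain ⟨x, hx, h⟩ := F.ex4 B hB
  obtain ⟨k, hk⟩ := F.two B hB ⟨x, hx⟩
  have hex : ∃ k, x ^ 2 ^ (k + 2) = 1 := ⟨k, by
    have : x ^ 2 ^ k = 1 := by simpa using congrArg Subtype.val hk
    rw [pow_add, pow_mul, this, one_pow]⟩
  have hs := Nat.find_spec hex
  refine ⟨x ^ 2 ^ Nat.find hex, pow_mem hx _, fun e => ?_, (F.mem_Om hB).2 ⟨mul_mem (pow_mem hx _) (pow_mem hx _), ?_⟩⟩
  · rcases hn : Nat.find hex with _ | j
    · rw [hn] at e; exact h (by simpa using e)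
    · rw [hn] at e
      exact Nat.find_min hex (m := j) (by omega) (by rw [← pow_add, ← two_mul, ← pow_succ'] at e; exact e)
  · refine Eq.trans ?_ hs; rw [← pow_add, ← pow_add]; congr 1; ring

omit [Finite G] in
theorem Fam.card_eq (F : Fam 𝓑) (hB : B ∈ 𝓑) (hB' : B' ∈ 𝓑) : Nat.card B = Nat.card B' := by
  obtain ⟨g, rfl⟩ := F.tr B hB B' hB'
  exact (card_map_of_injective (MulAut.conj g).injective).symm

omit [Finite G] in
theorem Fam.card_Om (F : Fam 𝓑) (hB : B ∈ 𝓑) (hB' : B' ∈ 𝓑) : Nat.card (Om B) = Nat.card (Om B') := by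
  obtain ⟨g, rfl⟩ := F.tr B hB B' hB'
  rw [Om_cj]; exact (card_map_of_injective (MulAut.conj g).injective).symm

omit [Finite G] in
theorem Qo_le (B : Subgroup G) : Qo B ≤ N[B] := map_subtype_le _
theorem Qo_two (B : Subgroup G) : IsPGroup 2 (Qo B) := isPGroup_pCoreOf _

omit [Finite G] in
theorem N_le_NQ (B : Subgroup G) : N[B] ≤ N[Qo B] := le_normalizer_pCoreOf _

theorem le_Qo {P : Subgroup G} (hP : IsPGroup 2 P) (h1 : P ≤ N[B]) (h2 : N[B] ≤ N[P]) : P ≤ Qo B := le_pCoreOf h1 h2 hP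

theorem Fam.le_Q (F : Fam 𝓑) (hB : B ∈ 𝓑) : B ≤ Qo B := le_Qo (F.two B hB) (F.le_N hB) le_rfl

theorem Fam.eq_of_N (F : Fam 𝓑) (hB : B ∈ 𝓑) (hB' : B' ∈ 𝓑) (h : N[B] ≤ N[B']) : B = B' := by
  obtain ⟨g, rfl⟩ := F.tr B hB B' hB'
  obtain ⟨v, hv, h1⟩ := F.Om_ne hB'
  have e : N[g •ᶜ B] ≤ N[B] := F.max B hB _ (F.two _ hB') (fun e => h1 (mem_bot.1 (e ▸ hv.1))) h
  have e' : g •ᶜ N[B] = N[B] := by
    ext x; rw [mem_cj, ← mem_nm_cj]; exact ⟨fun a => e a, fun a => h a⟩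
  obtain ⟨v, hv, h1⟩ := F.Om_ne hB
  have := F.max B hB _ (Qo_two B) (fun e => h1 (by simpa [e] using F.le_Q hB hv.1)) (N_le_NQ B)
    (normalizer_le_normalizer_pCoreOf _ (cj_eq_iff.1 e'))
  exact (cj_eq_iff.2 this).symm

/-- a 2-element normalizing a nontrivial 2-group `D` centralizes a nontrivial element of it -/
theorem exists_fix {D : Subgroup G} (hD : IsPGroup 2 D) (h1 : D ≠ ⊥) {a : G} (ha : a ∈ N[D]) {k : ℕ}
    (hk : a ^ 2 ^ k ∈ C[D]) : ∃ d ∈ D, d ≠ 1 ∧ Commute a d := by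
  obtain ⟨j, m, hm, hjm⟩ := Nat.exists_eq_two_pow_mul_odd (orderOf_pos a).ne'
  have h2 : IsPGroup 2 (zpowers (a ^ m)) := by
    rintro ⟨_, n, rfl⟩
    exact ⟨j, Subtype.ext (by
      change ((a ^ m) ^ n) ^ 2 ^ j = 1
      rw [← zpow_natCast, ← zpow_mul, mul_comm, zpow_mul, zpow_natCast, ← pow_mul, mul_comm, ← hjm, pow_orderOf_eq_one,
        one_zpow])⟩
  obtain ⟨d, hd, ho, hc⟩ := pg_exists_fixed_of_order_p hD h2 (zpowers_le.2 (pow_mem ha m)) h1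
  refine ⟨d, hd, (isInv_iff_orderOf.2 ho).1, ?_⟩
  have c1 : Commute (a ^ m) d := (cen hc (mem_zpowers _)).symm
  have c2 : Commute (a ^ 2 ^ k) d := cen hk hd
  have cop : Nat.Coprime m (2 ^ k) := (Nat.coprime_two_right.2 hm).pow_right k
  have := (c1.zpow_left (Nat.gcdA m (2 ^ k))).mul_left (c2.zpow_left (Nat.gcdB m (2 ^ k)))
  rwa [← zpow_natCast, ← zpow_natCast, ← zpow_mul, ← zpow_mul, ← zpow_add, ← Nat.gcd_eq_gcd_ab, cop, Nat.cast_one,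
    zpow_one] at this

/-- Baer–Suzuki in `N(B)` -/
theorem exists_odd {a : G} (ha : a ∈ N[B]) (h2 : a * a = 1) (hQ : a ∉ Qo B) :
    ∃ f ∈ N[B], f ≠ 1 ∧ Odd (orderOf f) ∧ a * f * a⁻¹ = f⁻¹ := by
  obtain ⟨f, h1, ho, hi⟩ := h9_exists_inverted_odd (a := (⟨a, ha⟩ : N[B])) (Subtype.ext h2) (fun h => hQ ⟨_, h, rfl⟩)
  exact ⟨f, f.2, fun e => h1 (Subtype.ext e), by rwa [Subgroup.orderOf_coe], congrArg Subtype.val hi⟩

/-- one step of a stability chain -/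
theorem odd_step {f y : G} (hf : Odd (orderOf f)) {P : Subgroup G} (hP : IsPGroup 2 P) (hc : f ∈ C[P])
    (h : f * y * f⁻¹ * y⁻¹ ∈ P) : Commute f y := by
  set p := f * y * f⁻¹ * y⁻¹ with hp
  have key : ∀ n : ℕ, f ^ n * y * (f ^ n)⁻¹ = p ^ n * y := fun n => by
    induction n with
    | zero => simp
    | succ n ih =>
      rw [show f ^ (n + 1) * y * (f ^ (n + 1))⁻¹ = f * (f ^ n * y * (f ^ n)⁻¹) * f⁻¹ by group, ih,
        show f * (p ^ n * y) * f⁻¹ = (f * p ^ n) * f⁻¹ * (p * y) by rw [hp]; group, (cen hc (pow_mem h n)).eq]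
      group
  have h1 : p ^ orderOf f = 1 := by simpa using (key (orderOf f)).symm
  obtain ⟨k, hk⟩ := hP ⟨p, h⟩
  have h2 : p ^ 2 ^ k = 1 := by simpa using congrArg Subtype.val hk
  have h3 : p = 1 := by
    rw [← orderOf_eq_one_iff]
    exact Nat.eq_one_of_dvd_coprimes ((Nat.coprime_two_right.2 hf).pow_right k) (orderOf_dvd_of_pow_eq_one h1)
      (orderOf_dvd_of_pow_eq_one h2)
  rw [hp] at h3
  exact commutatorElement_eq_one_iff_mul_comm.1 h3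

omit [Finite G] in
theorem odd_sq {f : G} (hf : Odd (orderOf f)) {H : Subgroup G} (h : f * f ∈ H) : f ∈ H := by
  obtain ⟨k, hk⟩ := h9_eq_pow_sq_of_odd hf
  rw [hk]; exact pow_mem h k

omit [Finite G] in
theorem N_le_NC {g : G} (h : g ∈ N[B]) : g ∈ N[C[B]] := by
  rw [mem_normalizer_iff'']; intro x; rw [← mem_cen_cj, cj_eq_iff.2 h]

/-- an odd order element of `C(B)` centralizing `Q ⊓ C(B)` is trivial -/
theorem Fam.odd_Q0 (F : Fam 𝓑) (hB : B ∈ 𝓑) {f : G} (hf : Odd (orderOf f)) (h1 : f ∈ C[B])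
    (h2 : f ∈ C[Qo B ⊓ C[B]]) : f = 1 := by
  have hN : f ∈ N[B] := centralizer_le_normalizer _ h1
  have : f ∈ Qo B := F.chr B hB f hN (cen_of fun y hy => odd_step hf ((Qo_two B).to_le inf_le_left) h2
    (mem_inf.2 ⟨mul_mem (nm (N_le_NQ B hN) hy) (inv_mem hy), by
      rw [mul_assoc, mul_assoc, ← mul_assoc y]
      exact mul_mem h1 (nm (N_le_NC (Qo_le B hy)) (inv_mem h1))⟩))
  obtain ⟨k, hk⟩ := Qo_two B ⟨f, this⟩
  have h2 : f ^ 2 ^ k = 1 := by simpa using congrArg Subtype.val hk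
  rw [← orderOf_eq_one_iff]
  exact Nat.eq_one_of_dvd_coprimes ((Nat.coprime_two_right.2 hf).pow_right k) dvd_rfl (orderOf_dvd_of_pow_eq_one h2)

/-- the counting trick: `Γ` is `Cm` or `Vc` -/
theorem Fam.ct (F : Fam 𝓑) (Γ : Subgroup G → Subgroup G → Prop) (hr : ∀ B ∈ 𝓑, Γ B B)
    (hc : ∀ B B' g, Γ B B' → Γ (g •ᶜ B) (g •ᶜ B')) (hv : ∀ B ∈ 𝓑, ∀ B' ∈ 𝓑, Γ B B' → Vc B B')
    (hB : B ∈ 𝓑) (hB' : B' ∈ 𝓑) (h : ∀ P ∈ 𝓑, Γ B P → Γ B' P) : B = B' := by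
  have fin : ∀ s : Set (Subgroup G), s.Finite := fun s => s.toFinite
  let S : Subgroup G → Set (Subgroup G) := fun B => {P | P ∈ 𝓑 ∧ Γ B P}
  have hS : ∀ B g, S (g •ᶜ B) = (fun P => g •ᶜ P) '' S B := fun B g => by
    ext P
    exact ⟨fun h => ⟨g⁻¹ •ᶜ P, ⟨F.conj _ h.1 _, by simpa only [cj_inv_cj] using hc _ _ g⁻¹ h.2⟩, cj_cj_inv _ _⟩,
      by rintro ⟨P, h, rfl⟩; exact ⟨F.conj _ h.1 _, hc _ _ g h.2⟩⟩
  have e : S B = S B' := by
    refine Set.eq_of_subset_of_ncard_le (fun P hP => ⟨hP.1, h P hP.1 hP.2⟩) ?_ (fin _)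
    obtain ⟨g, rfl⟩ := F.tr B hB B' hB'
    rw [hS]; exact Set.ncard_image_le (fin _)
  let X : Set G := {x | ∃ P ∈ 𝓑, S P = S B ∧ x ∈ Om P}
  have hX : ∀ x ∈ X, ∀ y ∈ X, Commute x y := by
    rintro x ⟨P, hP, e1, hx⟩ y ⟨P', hP', e2, hy⟩
    have : P' ∈ S P := by rw [e1, ← e2]; exact ⟨hP', hr _ hP'⟩
    exact (hv _ hP _ hP' this.2).comm hx hy
  have hcm : ∀ x ∈ closure X, ∀ y ∈ closure X, Commute x y := fun x hx y hy =>
    cen ((closure_le (K := C[closure X])).2 (fun a ha => cen_of fun b hb =>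
      Commute.symm (mem_centralizer_singleton_iff.1
        ((closure_le (K := C1[a])).2 (fun c hc => mem_centralizer_singleton_iff.2 (hX c hc a ha).eq) hb))) hx) hy
  have h2 : IsPGroup 2 (closure X) := fun x => ⟨1, Subtype.ext (by
    obtain ⟨x, hx⟩ := x
    change x ^ 2 ^ 1 = 1
    rw [pow_one, sq]
    induction hx using closure_induction with
    | mem x h => obtain ⟨P, _, _, hx⟩ := h; exact Om_sq hx
    | one => simp
    | mul a b ha hb iha ihb =>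
      rw [show a * b * (a * b) = a * (b * a) * b by group, (hcm b hb a ha).eq,
        show a * (a * b) * b = (a * a) * (b * b) by group, iha, ihb, mul_one]
    | inv a _ ih => rw [← mul_inv_rev, ih, inv_one])⟩
  have hN : ∀ P ∈ 𝓑, S P = S B → N[closure X] = N[P] := fun P hP e1 => by
    have a : N[P] ≤ N[closure X] := fun g hg => by
      refine mem_normalizer_fintype fun x hx => ?_
      have : g •ᶜ closure X ≤ closure X := by
        rw [MonoidHom.map_closure]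
        refine closure_mono ?_
        rintro _ ⟨y, ⟨P', hP', e2, hy⟩, rfl⟩
        exact ⟨g •ᶜ P', F.conj _ hP' _, by rw [hS, e2, ← e1, ← hS, cj_eq_iff.2 hg], by rw [Om_cj]; exact cj_mem g hy⟩
      exact this (cj_mem g hx)
    obtain ⟨v, hv, h1⟩ := F.Om_ne hP
    exact le_antisymm (F.max P hP _ h2 (fun e => h1 (by
      have : v ∈ closure X := subset_closure ⟨P, hP, e1, hv⟩
      simpa [e] using this)) a) a
  exact F.eq_of_N hB hB' (by rw [← hN B hB rfl, hN B' hB' e.symm])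

/-- in a 2-group generated by `A` and `A'` with `¬ A' ≤ A`, the normal closure of `A` is proper -/
theorem exists_ncl {A A' : Subgroup G} (hP : IsPGroup 2 (A ⊔ A' : Subgroup G)) (h : ¬ A' ≤ A) :
    ∃ K : Subgroup G, K < A ⊔ A' ∧ ∀ g ∈ A ⊔ A', g •ᶜ A ≤ K := by
  have hlt : A < A ⊔ A' := lt_of_le_of_ne le_sup_left fun e => h (e ▸ le_sup_right)
  obtain ⟨K, hAK, hK, hmax⟩ := Finite.exists_le_maximal (p := fun K => K < A ⊔ A') hlt
  obtain ⟨x, hx, hxn, hxK⟩ := exists_mem_normalizer_not_mem_of_lt_pgroup hP hK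
  have hn : A ⊔ A' ≤ N[K] := by
    by_contra hc
    have : N[K] ⊓ (A ⊔ A') < A ⊔ A' := lt_of_le_of_ne inf_le_right fun e => hc (e ▸ inf_le_left)
    exact hxK (hmax this (le_inf le_normalizer hK.le) ⟨hxn, hx⟩)
  exact ⟨K, hK, fun g hg => by rw [← cj_eq_iff.2 (hn hg)]; exact cj_mono hAK⟩

end Cfsg.Lib.TIB
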