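import Cfsg.Agent.Lib.Bender.Inv
import Cfsg.Agent.Lib.Quad.BaerSuzuki
import Cfsg.Agent.Lib.Misc.Invol

/-! S1779 (plan: notes/S1779_PLAN.md).  A conjugacy class `𝓑` of abelian, non-cyclic, non-elementary TI 2-subgroups whose
normalizers are maximal 2-local of characteristic 2.  "Points" = members `B` of `𝓑`, `Om B = Ω₁(B)`. -/

set_option autoImplicit false

namespace Cfsg.Lib.TIB
open Subgroup Cfsg.Lib Cfsg.Lib.FT Cfsg.Lib.Bender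
open scoped commutatorElement

variable {G : Type*} [Group G]

/-- `Ω₁(B)` for abelian `B` -/
def Om (B : Subgroup G) : Subgroup G where
  carrier := {x | x ∈ B ∧ x ∈ C[B] ∧ x * x = 1}
  one_mem' := ⟨one_mem _, one_mem _, mul_one _⟩
  mul_mem' := by
    rintro a b ⟨a1, a2, a3⟩ ⟨b1, b2, b3⟩
    refine ⟨mul_mem a1 b1, mul_mem a2 b2, ?_⟩
    have e : b * a = a * b := mem_centralizer_iff.1 a2 b b1
    rw [show a * b * (a * b) = a * (b * a) * b by group, e, show a * (a * b) * b = (a * a) * (b * b) by group, a3, b3,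
      mul_one]
  inv_mem' := by
    rintro a ⟨a1, a2, a3⟩
    exact ⟨inv_mem a1, inv_mem a2, by rw [← mul_inv_rev, a3, inv_one]⟩

/-- `O₂(N(B))` -/
abbrev Qo (B : Subgroup G) : Subgroup G := (pCore 2 N[B]).map N[B].subtype

structure Fam (𝓑 : Set (Subgroup G)) : Prop where
  conj : ∀ B ∈ 𝓑, ∀ g : G, g •ᶜ B ∈ 𝓑
  tr : ∀ B ∈ 𝓑, ∀ B' ∈ 𝓑, ∃ g : G, g •ᶜ B = B'
  ti : ∀ B ∈ 𝓑, ∀ B' ∈ 𝓑, ∀ x ∈ B, x ∈ B' → x ≠ 1 → B = B'
  two : ∀ B ∈ 𝓑, IsPGroup 2 B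
  comm : ∀ B ∈ 𝓑, B ≤ C[B]
  ex4 : ∀ B ∈ 𝓑, ∃ x ∈ B, x * x ≠ 1
  four : ∀ B ∈ 𝓑, ∃ u ∈ Om B, ∃ v ∈ Om B, u ≠ 1 ∧ v ≠ 1 ∧ u ≠ v
  max : ∀ B ∈ 𝓑, ∀ P : Subgroup G, IsPGroup 2 P → P ≠ ⊥ → N[B] ≤ N[P] → N[P] ≤ N[B]
  chr : ∀ B ∈ 𝓑, ∀ c ∈ N[B], c ∈ C[Qo B] → c ∈ Qo B

/-- `B` and `B'` commute (type (ii) if `B ≠ B'`) -/
def Cm (B B' : Subgroup G) : Prop := B ≤ C[B']
/-- `Ω₁(B)` and `Ω₁(B')` commute; its negation is type (i) -/
def Vc (B B' : Subgroup G) : Prop := Om B ≤ C[Om B']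
/-- type (iii): `Om B ⊔ Om B'` is a "line" -/
structure Ln (B B' : Subgroup G) : Prop where
  ne : B ≠ B'
  vc : Vc B B'
  ncm : ¬ Cm B B'

/-- no two distinct points commute -/
def NoCm (𝓑 : Set (Subgroup G)) : Prop := ∀ B ∈ 𝓑, ∀ B' ∈ 𝓑, Cm B B' → B = B'
/-- every involution of a point is a square in it -/
def NatF (𝓑 : Set (Subgroup G)) : Prop := ∀ B ∈ 𝓑, ∀ v ∈ Om B, ∃ x ∈ B, x * x = v

/-- two non-commuting lines through `B` -/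
structure Tri (B B₁ B₂ : Subgroup G) : Prop where
  l1 : Ln B B₁
  l2 : Ln B B₂
  nv : ¬ Vc B₁ B₂
  cm : ∀ u ∈ Om B₁, ∀ t ∈ Om B₂, ⁅u, t⁆ ∈ Om B

/-- the final local structure at `B`: `R = B ⊔ Om B₁` of order 64 -/
structure Fin2 (𝓑 : Set (Subgroup G)) (B B₁ B₂ : Subgroup G) : Prop where
  tri : Tri B B₁ B₂
  le : Om B₂ ≤ B ⊔ Om B₁
  lines : ∀ B₃ ∈ 𝓑, Ln B B₃ → Om B₃ ≤ Om B ⊔ Om B₁ ∨ Om B₃ ≤ Om B ⊔ Om B₂
  inv : ∀ z ∈ B ⊔ Om B₁, z * z = 1 → z ∈ Om B ⊔ Om B₁ ∨ z ∈ Om B ⊔ Om B₂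
  cent : ∀ g ∈ N[B], g ∈ N[Om B ⊔ Om B₁] → g ∈ C[Om B] → g ∈ B ⊔ Om B₁

theorem Om_le (B : Subgroup G) : Om B ≤ B := fun _ h => h.1
theorem Om_sq {B : Subgroup G} {v : G} (h : v ∈ Om B) : v * v = 1 := h.2.2
theorem Om_inv {B : Subgroup G} {v : G} (h : v ∈ Om B) : v⁻¹ = v := inv_eq_of_mul_eq_one_right h.2.2
theorem Om_cent (B : Subgroup G) : Om B ≤ C[B] := fun _ h => h.2.1
theorem Om_comm {B : Subgroup G} {v x : G} (h : v ∈ Om B) (hx : x ∈ B) : Commute v x :=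
  (mem_centralizer_iff.1 h.2.1 x hx).symm

theorem mem_cj {B : Subgroup G} {g x : G} : x ∈ g •ᶜ B ↔ g⁻¹ * x * g ∈ B :=
  ⟨by rintro ⟨y, hy, rfl⟩; simpa [mul_assoc] using hy, fun h => ⟨_, h, by simp [mul_assoc]⟩⟩
theorem cj_mem {B : Subgroup G} {x : G} (g : G) (h : x ∈ B) : g * x * g⁻¹ ∈ g •ᶜ B := ⟨x, h, rfl⟩
theorem cj_cj (g h : G) (B : Subgroup G) : g •ᶜ (h •ᶜ B) = (g * h) •ᶜ B := by
  ext x; simp only [mem_cj, mul_inv_rev, mul_assoc]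
theorem cj_one (B : Subgroup G) : (1 : G) •ᶜ B = B := by ext x; simp [mem_cj]
theorem cj_inv_cj (g : G) (B : Subgroup G) : g⁻¹ •ᶜ (g •ᶜ B) = B := by rw [cj_cj, inv_mul_cancel, cj_one]
theorem cj_cj_inv (g : G) (B : Subgroup G) : g •ᶜ (g⁻¹ •ᶜ B) = B := by rw [cj_cj, mul_inv_cancel, cj_one]
theorem cj_inj {g : G} {B B' : Subgroup G} (h : g •ᶜ B = g •ᶜ B') : B = B' := by
  rw [← cj_inv_cj g B, h, cj_inv_cj]
theorem cj_eq_iff {B : Subgroup G} {g : G} : g •ᶜ B = B ↔ g ∈ N[B] := by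
  rw [mem_normalizer_iff'']
  exact ⟨fun h x => by rw [← mem_cj, h], fun h => by ext x; rw [mem_cj, ← h]⟩
theorem cj_mono {g : G} {A B : Subgroup G} (h : A ≤ B) : g •ᶜ A ≤ g •ᶜ B := map_mono h
theorem cj_sup (g : G) (A B : Subgroup G) : g •ᶜ (A ⊔ B) = g •ᶜ A ⊔ g •ᶜ B := map_sup _ _ _
theorem nm {B : Subgroup G} {g x : G} (hg : g ∈ N[B]) (hx : x ∈ B) : g * x * g⁻¹ ∈ B :=
  (mem_normalizer_iff.1 hg x).1 hx
theorem nm' {B : Subgroup G} {g x : G} (hg : g ∈ N[B]) (hx : x ∈ B) : g⁻¹ * x * g ∈ B := by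
  simpa using nm (inv_mem hg) hx
theorem cen {B : Subgroup G} {c x : G} (hc : c ∈ C[B]) (hx : x ∈ B) : Commute c x :=
  (mem_centralizer_iff.1 hc x hx).symm
theorem cen_of {B : Subgroup G} {c : G} (h : ∀ x ∈ B, Commute c x) : c ∈ C[B] :=
  mem_centralizer_iff.2 fun x hx => (h x hx).eq.symm
theorem mem_cen_cj {B : Subgroup G} {g c : G} : c ∈ C[g •ᶜ B] ↔ g⁻¹ * c * g ∈ C[B] := by
  constructor
  · intro h; refine cen_of fun x hx => ?_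
    have := (cen h (cj_mem g hx)).eq
    change g⁻¹ * c * g * x = x * (g⁻¹ * c * g)
    rw [show g⁻¹ * c * g * x = g⁻¹ * (c * (g * x * g⁻¹)) * g by group, this]; group
  · intro h; refine cen_of fun x hx => ?_
    have := (cen h (mem_cj.1 hx)).eq
    change c * x = x * c
    rw [show c * x = g * (g⁻¹ * c * g * (g⁻¹ * x * g)) * g⁻¹ by group, this]; group
theorem mem_nm_cj {B : Subgroup G} {g c : G} : c ∈ N[g •ᶜ B] ↔ g⁻¹ * c * g ∈ N[B] := by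
  rw [← cj_eq_iff, ← cj_eq_iff, cj_cj]
  constructor
  · intro h; apply cj_inj (g := g); rw [cj_cj, ← h]; congr 2; group
  · intro h; rw [show c * g = g * (g⁻¹ * c * g) by group, ← cj_cj, h]
theorem Om_cj (g : G) (B : Subgroup G) : Om (g •ᶜ B) = g •ᶜ Om B := by
  ext x
  rw [mem_cj]
  refine and_congr mem_cj (and_congr mem_cen_cj ?_)
  rw [show g⁻¹ * x * g * (g⁻¹ * x * g) = g⁻¹ * (x * x) * g by group]
  exact ⟨fun h => by simp [h], fun h => by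
    rw [show x * x = g * (g⁻¹ * (x * x) * g) * g⁻¹ by group, h]; simp⟩
theorem N_le_NOm (B : Subgroup G) : N[B] ≤ N[Om B] := fun g hg => by
  rw [← cj_eq_iff, ← Om_cj, cj_eq_iff.2 hg]

theorem Cm.symm {B B' : Subgroup G} (h : Cm B B') : Cm B' B := fun _ hx => cen_of fun _ hy => (cen (h hy) hx).symm
theorem Vc.symm {B B' : Subgroup G} (h : Vc B B') : Vc B' B := fun _ hx => cen_of fun _ hy => (cen (h hy) hx).symm
theorem Cm.vc {B B' : Subgroup G} (h : Cm B B') : Vc B B' := fun _ hx => cen_of fun _ hy => cen (h hx.1) hy.1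
theorem Vc.refl (B : Subgroup G) : Vc B B := fun _ hx => cen_of fun _ hy => Om_comm hx hy.1
theorem Vc.comm {B B' : Subgroup G} (h : Vc B B') {v u : G} (hv : v ∈ Om B) (hu : u ∈ Om B') : Commute v u :=
  cen (h hv) hu
theorem Cm.comm {B B' : Subgroup G} (h : Cm B B') {v u : G} (hv : v ∈ B) (hu : u ∈ B') : Commute v u :=
  cen (h hv) hu
theorem Ln.symm {B B' : Subgroup G} (h : Ln B B') : Ln B' B := ⟨h.ne.symm, h.vc.symm, fun c => h.ncm c.symm⟩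
theorem Cm.cj {B B' : Subgroup G} (h : Cm B B') (g : G) : Cm (g •ᶜ B) (g •ᶜ B') := fun _ hx =>
  mem_cen_cj.2 (h (mem_cj.1 hx))
theorem Vc.cj {B B' : Subgroup G} (h : Vc B B') (g : G) : Vc (g •ᶜ B) (g •ᶜ B') := by
  unfold Vc; rw [Om_cj, Om_cj]; exact fun _ hx => mem_cen_cj.2 (h (mem_cj.1 hx))
theorem Ln.cj {B B' : Subgroup G} (h : Ln B B') (g : G) : Ln (g •ᶜ B) (g •ᶜ B') :=
  ⟨fun e => h.ne (cj_inj e), h.vc.cj g, fun c => h.ncm (by simpa only [cj_inv_cj] using c.cj g⁻¹)⟩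
theorem Tri.symm {B B₁ B₂ : Subgroup G} (h : Tri B B₁ B₂) : Tri B B₂ B₁ :=
  ⟨h.l2, h.l1, fun c => h.nv c.symm, fun u hu t ht => by
    rw [← commutatorElement_inv]; exact inv_mem (h.cm t ht u hu)⟩

/-- elements of `A ⊔ B` when `A` normalizes `B` -/
theorem mem_sup_nm {A B : Subgroup G} (h : A ≤ N[B]) {x : G} : x ∈ A ⊔ B ↔ ∃ a ∈ A, ∃ b ∈ B, x = a * b := by
  refine ⟨fun hx => ?_, by rintro ⟨a, ha, b, hb, rfl⟩; exact mul_mem (mem_sup_left ha) (mem_sup_right hb)⟩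
  have : (x : G) ∈ ((A ⊔ B : Subgroup G) : Set G) := hx
  rw [coe_mul_of_left_le_normalizer_right A B h] at this
  obtain ⟨a, ha, b, hb, rfl⟩ := this
  exact ⟨a, ha, b, hb, rfl⟩

theorem Vc.mem_sup {B B' : Subgroup G} (h : Vc B B') {e : G} :
    e ∈ Om B ⊔ Om B' ↔ ∃ v ∈ Om B, ∃ u ∈ Om B', e = v * u :=
  mem_sup_nm (h.trans (centralizer_le_normalizer _))

end Cfsg.Lib.TIB
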