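import Cfsg.Agent.Lib.TIB.Basic

/-! S1779: the dihedral lemma for transvections of an elementary abelian group `E`. -/

set_option autoImplicit false

namespace Cfsg.Lib.TIB
open Subgroup Cfsg.Lib Cfsg.Lib.FT Cfsg.Lib.Bender
open scoped commutatorElement

variable {G : Type*} [Group G] [Finite G] {𝓑 : Set (Subgroup G)}

omit [Finite G] in
theorem dih_coset {a b : G} (ha : a * a = 1) (hb : b * b = 1) (j : ℕ) : ∃ i : ℕ,
    (a * b) ^ i * a * ((a * b) ^ i)⁻¹ = (a * b) ^ j * b ∨ (a * b) ^ i * b * ((a * b) ^ i)⁻¹ = (a * b) ^ j * b := by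
  have e : ∀ i : ℕ, b * ((a * b) ^ i)⁻¹ = (a * b) ^ i * b := fun i => by
    rw [← h9_conj_pow_of_inv (h9_invol_inverts_right ha hb) i, inv_eq_of_mul_eq_one_right hb, ← mul_assoc, ← mul_assoc, hb,
      one_mul]
  have e' : a = a * b * b := by rw [mul_assoc, hb, mul_one]
  obtain ⟨i, rfl | rfl⟩ := Nat.even_or_odd' j
  · exact ⟨i, Or.inr (by rw [mul_assoc, e, ← mul_assoc, ← pow_add, two_mul])⟩
  · refine ⟨i, Or.inl ?_⟩
    calc (a * b) ^ i * a * ((a * b) ^ i)⁻¹ = (a * b) ^ i * (a * b) * (b * ((a * b) ^ i)⁻¹) := by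
          rw [mul_assoc _ (a * b), ← mul_assoc (a * b), ← e', mul_assoc]
      _ = _ := by rw [e, ← pow_succ, ← mul_assoc, ← pow_add]; congr 2; ring

theorem dih_mod {E H : Subgroup G} (hH : H ≤ N[E]) {a b : G} (ha : a ∈ H) (hb : b ∈ H) (a2 : a * a ∈ C[E])
    (b2 : b * b ∈ C[E]) : (∃ h ∈ H, h * a * h⁻¹ * b⁻¹ ∈ C[E]) ∨ ∃ w ∈ H, w ∉ C[E] ∧ ⁅w, a⁆ ∈ C[E] ∧ ⁅w, b⁆ ∈ C[E] ∧
      (∃ h ∈ H, h * a * h⁻¹ * (w * b)⁻¹ ∈ C[E] ∨ h * b * h⁻¹ * (w * b)⁻¹ ∈ C[E]) ∧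
      (∃ h ∈ H, h * a * h⁻¹ * (w * a)⁻¹ ∈ C[E] ∨ h * b * h⁻¹ * (w * a)⁻¹ ∈ C[E]) := by
  let π := E.normalizerMonoidHom
  have hπ : ∀ g : N[E], π g = 1 ↔ (g : G) ∈ C[E] := fun g => by
    rw [← MonoidHom.mem_ker, normalizerMonoidHom_ker, mem_subgroupOf]
  let A : N[E] := ⟨a, hH ha⟩
  let B : N[E] := ⟨b, hH hb⟩
  have hA : π A * π A = 1 := by rw [← map_mul, hπ]; exact a2
  have hB : π B * π B = 1 := by rw [← map_mul, hπ]; exact b2
  have mem : ∀ i : ℕ, (a * b) ^ i ∈ H := fun i => pow_mem (mul_mem ha hb) i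
  have tr : ∀ X Y : N[E], π X = π Y → (X : G) * (Y : G)⁻¹ ∈ C[E] := fun X Y h =>
    (hπ (X * Y⁻¹)).1 (by rw [map_mul, map_inv, h, mul_inv_cancel])
  rcases Nat.even_or_odd (orderOf (π A * π B)) with h | h
  · obtain ⟨m, _, h2, c1, c2⟩ := h9_central_invol_of_even hA hB h
    refine Or.inr ⟨(a * b) ^ m, mem m, fun hc => (isInv_iff_orderOf.2 h2).1 ?_, ?_, ?_, ?_, ?_⟩
    · rw [← map_mul, ← map_pow, hπ]; exact hc
    · simpa [commutatorElement_def, mul_assoc] using tr ((A * B) ^ m * A) (A * (A * B) ^ m) (by simpa using c1.eq)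
    · simpa [commutatorElement_def, mul_assoc] using tr ((A * B) ^ m * B) (B * (A * B) ^ m) (by simpa using c2.eq)
    · obtain ⟨i, hi | hi⟩ := dih_coset hA hB m
      · exact ⟨_, mem i, Or.inl (tr ((A * B) ^ i * A * ((A * B) ^ i)⁻¹) ((A * B) ^ m * B) (by simpa using hi))⟩
      · exact ⟨_, mem i, Or.inr (tr ((A * B) ^ i * B * ((A * B) ^ i)⁻¹) ((A * B) ^ m * B) (by simpa using hi))⟩
    · have e : (π A * π B) ^ (m + 1) * π B = (π A * π B) ^ m * π A := by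
        rw [pow_succ, mul_assoc, mul_assoc, hB, mul_one]
      obtain ⟨i, hi | hi⟩ := dih_coset hA hB (m + 1)
      · exact ⟨_, mem i, Or.inl (tr ((A * B) ^ i * A * ((A * B) ^ i)⁻¹) ((A * B) ^ m * A) (by simpa [e] using hi))⟩
      · exact ⟨_, mem i, Or.inr (tr ((A * B) ^ i * B * ((A * B) ^ i)⁻¹) ((A * B) ^ m * A) (by simpa [e] using hi))⟩
  · obtain ⟨i, hi⟩ := h9_conj_of_odd hA hB h
    exact Or.inl ⟨_, mem i, tr ((A * B) ^ i * A * ((A * B) ^ i)⁻¹) B (by simpa using hi)⟩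

/-- `a` acts on `E` as a transvection with centre and axis `E ⊓ D` -/
structure Tr (E D : Subgroup G) (a : G) : Prop where
  n : a ∈ N[E]
  fix : ∀ e ∈ E, (Commute a e ↔ e ∈ D)
  cm : ∀ e ∈ E, ⁅a, e⁆ ∈ D

variable {E D : Subgroup G} {a b : G}

omit [Finite G] in
theorem act_mod (hb : b ∈ N[E]) (h : a * b⁻¹ ∈ C[E]) {e : G} (he : e ∈ E) : a * e * a⁻¹ = b * e * b⁻¹ := by
  have := (cen h (nm hb he)).eq
  rw [show a * e * a⁻¹ = a * b⁻¹ * (b * e * b⁻¹) * (a * b⁻¹)⁻¹ by group, this]; group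

omit [Finite G] in
theorem Tr.mod (T : Tr E D a) (h : a * b⁻¹ ∈ C[E]) : Tr E D b := by
  have hb : b ∈ N[E] := by
    simpa using mul_mem (inv_mem (centralizer_le_normalizer _ h)) T.n
  refine ⟨hb, fun e he => ?_, fun e he => ?_⟩
  · rw [← T.fix e he, Commute, Commute, SemiconjBy, SemiconjBy, ← mul_inv_eq_iff_eq_mul, ← act_mod hb h he,
      mul_inv_eq_iff_eq_mul]
  · rw [commutatorElement_def, ← act_mod hb h he]; exact T.cm e he

omit [Finite G] in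
theorem Tr.cj (T : Tr E D a) {h : G} (hh : h ∈ N[E]) : Tr E (h •ᶜ D) (h * a * h⁻¹) := by
  refine ⟨mul_mem (mul_mem hh T.n) (inv_mem hh), fun e he => ?_, fun e he => ?_⟩
  · rw [mem_cj, ← T.fix _ (nm' hh he)]
    exact ⟨fun c => by simpa [mul_assoc] using c.conj h⁻¹, fun c => by simpa [mul_assoc] using c.conj h⟩
  · rw [mem_cj]; simpa [commutatorElement_def, mul_assoc] using T.cm _ (nm' hh he)

omit [Finite G] in
theorem Tr.sq (T : Tr E D a) (hE : ∀ e ∈ E, e * e = 1) : a * a ∈ C[E] := cen_of fun e he => by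
  have m : ⁅a, e⁆ ∈ E := mul_mem (nm T.n he) (inv_mem he)
  have c := ((T.fix _ m).2 (T.cm e he)).eq
  have s := hE _ m
  change a * a * e = e * (a * a)
  rw [show a * a * e = (a * ⁅a, e⁆) * e * a by rw [commutatorElement_def]; group, c,
    show ⁅a, e⁆ * a * e * a = ⁅a, e⁆ * ⁅a, e⁆ * e * (a * a) by rw [commutatorElement_def]; group, s, one_mul]

omit [Finite G] in
theorem Tr.norm (T : Tr E D a) {w : G} (hw : w ∈ N[E]) (h : ⁅w, a⁆ ∈ C[E]) {e : G} (he : e ∈ E) (hD : e ∈ D) :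
    w * e * w⁻¹ ∈ D := by
  refine (T.fix _ (nm hw he)).1 ?_
  have c := ((T.fix e he).2 hD).eq
  have := act_mod (a := w * a) (mul_mem T.n hw) (by simpa [commutatorElement_def, mul_assoc] using h) he
  change a * (w * e * w⁻¹) = w * e * w⁻¹ * a
  rw [show a * (w * e * w⁻¹) = a * w * e * (a * w)⁻¹ * a by group, ← this,
    show w * a * e * (w * a)⁻¹ = w * (a * e) * a⁻¹ * w⁻¹ by group, c]; group

omit [Finite G] in
theorem Tr.cm_of_mul (T : Tr E D b) {w : G} (T' : Tr E D (w * b)) {e : G} (he : e ∈ E) : ⁅w, e⁆ ∈ D := by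
  have := mul_mem (T'.cm _ (nm' T.n he)) (inv_mem (T.cm _ (nm' T.n he)))
  simpa [commutatorElement_def, mul_assoc] using this

omit [Finite G] in
theorem two_of_sq (hE : ∀ e ∈ E, e * e = 1) : IsPGroup 2 E := fun x => ⟨1, Subtype.ext (by simpa [sq] using hE x x.2)⟩

theorem Fam.tr_eq (F : Fam 𝓑) {B P : Subgroup G} (hB : B ∈ 𝓑) (hP : P ∈ 𝓑) (hE : ∀ e ∈ E, e * e = 1)
    (ne : ∃ e ∈ E, e ∈ B ∧ e ≠ 1) {w : G} (T : Tr E B b) (hw : w ∈ N[E]) (h : ⁅w, b⁆ ∈ C[E]) (T' : Tr E P (w * b)) :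
    P = B := by
  obtain ⟨e, h1, h2, h3⟩ := ne
  obtain ⟨d, hd, h1, c⟩ := exists_fix (D := E ⊓ B) ((two_of_sq hE).to_le inf_le_left)
    (fun q => h3 (mem_bot.1 (q ▸ mem_inf.2 ⟨h1, h2⟩))) (a := w * b) (k := 1)
    (mem_normalizer_fintype fun e he => ⟨nm T'.n he.1, by
      rw [show w * b * e * (w * b)⁻¹ = w * (b * e) * b⁻¹ * w⁻¹ by group, ((T.fix e he.1).2 he.2).eq, mul_assoc w,
        mul_inv_cancel_right]
      exact T.norm hw h he.1 he.2⟩)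
    (by rw [pow_one, sq]; exact centralizer_le inf_le_left (T'.sq hE))
  exact F.ti _ hP _ hB d ((T'.fix d hd.1).1 c) hd.2 h1

/-- the dihedral lemma -/
theorem Fam.dl (F : Fam 𝓑) {B B' H : Subgroup G} (hB : B ∈ 𝓑) (hB' : B' ∈ 𝓑) (ne : B ≠ B') (hE : ∀ e ∈ E, e * e = 1)
    (n1 : ∃ e ∈ E, e ∈ B ∧ e ≠ 1) (n2 : ∃ e ∈ E, e ∈ B' ∧ e ≠ 1) (T : Tr E B a) (T' : Tr E B' b) (hH : H ≤ N[E])
    (ha : a ∈ H) (hb : b ∈ H) : ∃ h ∈ H, h •ᶜ B = B' ∧ h * a * h⁻¹ * b⁻¹ ∈ C[E] := by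
  rcases dih_mod hH ha hb (T.sq hE) (T'.sq hE) with ⟨h, hh, c⟩ | ⟨w, hw, hc, c1, c2, ⟨h, hh, k⟩, h', hh', k'⟩
  · obtain ⟨e, h1, h2, h3⟩ := n2
    exact ⟨h, hh, F.ti _ (F.conj B hB h) _ hB' e ((((T.cj (hH hh)).mod c).fix e h1).1 ((T'.fix e h1).2 h2)) h2 h3, c⟩
  have t2 : Tr E B' (w * b) := by
    rcases k with k | k
    · have t := (T.cj (hH hh)).mod k
      exact F.tr_eq hB' (F.conj B hB h) hE n2 T' (hH hw) c2 t ▸ t
    · have t := (T'.cj (hH hh)).mod k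
      exact F.tr_eq hB' (F.conj _ hB' h) hE n2 T' (hH hw) c2 t ▸ t
  have t1 : Tr E B (w * a) := by
    rcases k' with k | k
    · have t := (T.cj (hH hh')).mod k
      exact F.tr_eq hB (F.conj B hB h') hE n1 T (hH hw) c1 t ▸ t
    · have t := (T'.cj (hH hh')).mod k
      exact F.tr_eq hB (F.conj _ hB' h') hE n1 T (hH hw) c1 t ▸ t
  exact absurd (cen_of fun e he => commutatorElement_eq_one_iff_mul_comm.1
    (F.eq_one hB hB' ne (T.cm_of_mul t1 he) (T'.cm_of_mul t2 he))) hc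

/-- an element swapping two points normalizes a point -/
theorem Fam.dl_swap (F : Fam 𝓑) {B : Subgroup G} (hB : B ∈ 𝓑) {y : G} (hy : y ∈ N[E]) (y2 : y * y ∈ C[E])
    (ne : B ≠ y •ᶜ B) (hE : ∀ e ∈ E, e * e = 1) (n1 : ∃ e ∈ E, e ∈ B ∧ e ≠ 1) (T : Tr E B b) :
    ∃ h ∈ N[E], y ∈ N[h •ᶜ B] := by
  have key : ∀ h ∈ N[E], ∀ c ∈ N[E], c ∈ N[B] → h * y * h⁻¹ * c⁻¹ ∈ C[E] → ∃ h ∈ N[E], y ∈ N[h •ᶜ B] :=
    fun h hh c hc hcB k => by
      obtain ⟨e, h1, h2, h3⟩ := n1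
      refine ⟨h⁻¹, inv_mem hh, mem_nm_cj.2 (cj_eq_iff.1 (F.cj_eq hB hB h2 h3 ?_))⟩
      rw [inv_inv, act_mod hc k h1]; exact nm hcB h2
  obtain ⟨e, h1, h2, h3⟩ := n1
  have bB : b ∈ N[B] := F.N_of_comm hB h2 h3 ((T.fix e h1).2 h2)
  rcases dih_mod le_rfl hy T.n y2 (T.sq hE) with ⟨h, hh, c⟩ | ⟨w, hw, hc, c1, c2, ⟨h, hh, k | k⟩, -⟩
  · exact key h hh b T.n bB c
  · exact key h hh _ (mul_mem hw T.n) (mul_mem (cj_eq_iff.1 (F.cj_eq hB hB h2 h3 (T.norm hw c2 h1 h2))) bB) k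
  · have t := (T.cj hh).mod k
    rw [F.tr_eq hB (F.conj B hB h) hE ⟨e, h1, h2, h3⟩ T hw c2 t] at t
    refine absurd (cen_of fun e he => commutatorElement_eq_one_iff_mul_comm.1
      (F.eq_one hB (F.conj B hB y) ne (T.cm_of_mul t he) (mem_cj.2 ?_))) hc
    have := act_mod (a := w * y) (mul_mem hy hw) (by simpa [commutatorElement_def, mul_assoc] using c1) (nm' hy he)
    have e2 : y⁻¹ * ⁅w, e⁆ * y = ⁅w, y⁻¹ * e * y⁆ := by
      rw [commutatorElement_def, show w * e * w⁻¹ = w * y * (y⁻¹ * e * y) * (w * y)⁻¹ by group, this,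
        commutatorElement_def]; group
    rw [e2]; exact T.cm_of_mul t (nm' hy he)

end Cfsg.Lib.TIB
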