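import Cfsg.Agent.Lib.TIB.Dih

/-! S1779: the three types of pairs, lines (owner helper4). -/

set_option autoImplicit false

namespace Cfsg.Lib.TIB
open Subgroup Cfsg.Lib Cfsg.Lib.FT Cfsg.Lib.Bender
open scoped commutatorElement

variable {G : Type*} [Group G] [Finite G] {𝓑 : Set (Subgroup G)}

variable {B B' : Subgroup G}

omit [Finite G] in
theorem Fam.comm_DA (F : Fam 𝓑) (hB : B ∈ 𝓑) (hB' : B' ∈ 𝓑) (ne : B ≠ B') {d a : G} (hd : d ∈ B) (hd' : d ∈ N[B'])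
    (ha : a ∈ B') (ha' : a ∈ N[B]) : Commute d a :=
  commutatorElement_eq_one_iff_mul_comm.1 (F.eq_one hB hB' ne
    (by simpa [commutatorElement_def, mul_assoc] using mul_mem hd (nm ha' (inv_mem hd)))
    (mul_mem (nm hd' ha) (inv_mem ha)))

theorem Fam.exD (F : Fam 𝓑) (hB : B ∈ 𝓑) (hB' : B' ∈ 𝓑) {a : G} (ha : a ∈ B') (h1 : a ≠ 1) (ha' : a ∈ N[B]) :
    ∃ d ∈ B, d ≠ 1 ∧ d ∈ N[B'] := by
  obtain ⟨k, hk⟩ := F.two _ hB' ⟨a, ha⟩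
  obtain ⟨v, hv, v1⟩ := F.Om_ne hB
  obtain ⟨d, hd, d1, c⟩ := exists_fix (F.two B hB) (fun q => v1 (mem_bot.1 (q ▸ hv.1))) ha' (k := k)
    (by rw [show a ^ 2 ^ k = 1 by simpa using congrArg Subtype.val hk]; exact one_mem _)
  exact ⟨d, hd, d1, F.N_of_comm hB' ha h1 c.symm⟩

/-- if `B'` does not normalize `B` then `D = B ⊓ N(B')` is elementary and embeds in `A = B' ⊓ N(B)` -/
theorem Fam.elemD (F : Fam 𝓑) (hB : B ∈ 𝓑) (hB' : B' ∈ 𝓑) (ne : B ≠ B') (h : ¬ B' ≤ N[B]) :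
    ∃ x ∈ B', (∀ d ∈ B, d ∈ N[B'] → d * d = 1 ∧ ⁅x, d⁆ ∈ B' ∧ ⁅x, d⁆ ∈ N[B]) ∧
      ∀ d ∈ B, ∀ d' ∈ B, ⁅x, d⁆ = ⁅x, d'⁆ → d = d' := by
  obtain ⟨x, hx, hxA, hx2, hc⟩ := pg_exists_fixed_mod (K := B' ⊓ N[B]) (A := B ⊓ N[B']) (F.two _ hB')
    ((F.two _ hB).to_le inf_le_left) inf_le_right (lt_of_le_of_ne inf_le_left fun e => h (e ▸ inf_le_right))
    (((F.comm _ hB').trans (centralizer_le inf_le_left)).trans (centralizer_le_normalizer _))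
    (fun d hd => centralizer_le_normalizer _ (cen_of fun a ha => F.comm_DA hB hB' ne hd.1 hd.2 ha.1 ha.2))
  have inj : ∀ d ∈ B, Commute x d → d = 1 := fun d hd c => by_contra fun q => hxA ⟨hx, F.N_of_comm hB hd q c⟩
  refine ⟨x, hx, fun d hd hd' => ⟨inj _ (mul_mem hd hd) ?_, hc d ⟨hd, hd'⟩⟩, fun d hd d' hd' e => ?_⟩
  · have hp := hc d ⟨hd, hd'⟩
    have c1 := (F.comm_DA hB hB' ne hd hd' hp.1 hp.2).eq
    have c2 := (F.comm_DA hB hB' ne hd hd' hx2.1 hx2.2).eq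
    have c3 := (F.cm hB' hx hp.1).eq
    rw [← commutatorElement_eq_one_iff_commute]
    calc ⁅x, d * d⁆ = ⁅x, d⁆ * (d * ⁅x, d⁆) * d⁻¹ := by simp only [commutatorElement_def]; group
      _ = ⁅x, d⁆ * x * (d * x⁻¹ * d⁻¹) := by rw [c1]; simp only [commutatorElement_def]; group
      _ = x ^ 2 * d * x⁻¹ * d⁻¹ * (d * x⁻¹ * d⁻¹) := by rw [← c3, sq]; simp only [commutatorElement_def, mul_assoc]
      _ = 1 := by rw [← c2]; group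
  · have := inj (d'⁻¹ * d) (mul_mem (inv_mem hd') hd) (by
      change x * (d'⁻¹ * d) = d'⁻¹ * d * x
      simp only [commutatorElement_def, mul_assoc, mul_right_inj] at e
      rw [show d'⁻¹ * d * x = d'⁻¹ * (d * (x⁻¹ * d⁻¹))⁻¹ * d by group, e]; group)
    exact (inv_mul_eq_one.1 this).symm

theorem Fam.cm_of_mem (F : Fam 𝓑) (hB : B ∈ 𝓑) (hB' : B' ∈ 𝓑) {b : G} (hb : b ∈ B) (h1 : b * b ≠ 1)
    (hn : b ∈ N[B']) : Cm B B' := by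
  by_cases ne : B = B'
  · exact ne ▸ F.comm B hB
  have a : B' ≤ N[B] := by_contra fun h => let ⟨_, _, k, _⟩ := F.elemD hB hB' ne h; h1 (k b hb hn).1
  obtain ⟨x, hx, x2⟩ := F.ex4 _ hB'
  have c : B ≤ N[B'] := by_contra fun h => let ⟨_, _, k, _⟩ := F.elemD hB' hB (Ne.symm ne) h; x2 (k x hx (a hx)).1
  exact fun d hd => cen_of fun e he => F.comm_DA hB hB' ne hd (c hd) he (a he)

/-- type (iii) before we know `B ⊓ N(B') = Om B` -/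
structure Pre (B B' : Subgroup G) : Prop where
  ne : B ≠ B'
  ncm : ¬ Cm B B'
  ex : ∃ d ∈ B, d ≠ 1 ∧ d ∈ N[B']

section
variable (F : Fam 𝓑) (hB : B ∈ 𝓑) (hB' : B' ∈ 𝓑) (L : Pre B B')
include F hB hB' L

theorem Fam.pre_symm : Pre B' B :=
  ⟨L.ne.symm, fun c => L.ncm c.symm, let ⟨_, a, b, c⟩ := L.ex; F.exD hB' hB a b c⟩

theorem Fam.pre_sq {d : G} (hd : d ∈ B) (hn : d ∈ N[B']) : d * d = 1 :=
  by_contra fun h => L.ncm (F.cm_of_mem hB hB' hd h hn)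

theorem Fam.pre_nle : ¬ B' ≤ N[B] := fun h =>
  let ⟨x, hx, x2⟩ := F.ex4 _ hB'; x2 (F.pre_sq hB' hB (F.pre_symm hB hB' L) hx (h hx))

theorem Fam.pre_norm {a b : G} (ha : a ∈ B') (ha' : a ∈ N[B]) (a1 : a ≠ 1) (hb : b ∈ B) : b * (a * b * a⁻¹) ∈ N[B'] := by
  refine F.N_of_comm hB' ha a1 ?_
  have a2 := F.pre_sq hB' hB (F.pre_symm hB hB' L) ha ha'
  have c := (F.cm hB hb (nm ha' hb)).eq
  change b * (a * b * a⁻¹) * a = a * (b * (a * b * a⁻¹))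
  rw [show b * (a * b * a⁻¹) * a = b * a * b by group, c, show a * (a * b * a⁻¹ * b) = (a * a) * b * a⁻¹ * b by group, a2,
    one_mul, inv_eq_of_mul_eq_one_right a2]

theorem Fam.pre_two : ∃ d ∈ B, ∃ d' ∈ B, d ∈ N[B'] ∧ d' ∈ N[B'] ∧ d ≠ 1 ∧ d' ≠ 1 ∧ d ≠ d' := by
  by_contra! h
  obtain ⟨d, hd, d1, dn⟩ := L.ex
  obtain ⟨a, ha, a1, an⟩ := (F.pre_symm hB hB' L).ex
  have hD : ∀ e ∈ B, e ∈ N[B'] → e = 1 ∨ e = d := fun e he en => or_iff_not_imp_left.2 fun q => h e he d hd en dn q d1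
  have d2 := F.pre_sq hB hB' L hd dn
  have fx : ∀ e ∈ B, Commute e a → e = 1 ∨ e = d := fun e he c => hD e he (F.N_of_comm hB' ha a1 c)
  have inv : ∀ x ∈ B, x * x ≠ 1 → x * x * (x * x) = 1 → x * (a * x * a⁻¹) = 1 := fun x hx x2 x4 => by
    rcases hD _ (mul_mem hx (nm an hx)) (F.pre_norm hB hB' L ha an a1 hx) with e | e
    · exact e
    have e1 : a * x * a⁻¹ = x⁻¹ * d := by rw [← e]; group
    have c := (F.cm hB hd hx).eq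
    have xi : (x * x)⁻¹ = x * x := inv_eq_of_mul_eq_one_right x4
    have e2 : a * (x * x) * a⁻¹ = x * x := by
      rw [show a * (x * x) * a⁻¹ = (a * x * a⁻¹) * (a * x * a⁻¹) by group, e1,
        show x⁻¹ * d * (x⁻¹ * d) = x⁻¹ * x⁻¹ * (x * d) * x⁻¹ * d by group, ← c,
        show x⁻¹ * x⁻¹ * (d * x) * x⁻¹ * d = (x * x)⁻¹ * (d * d) by group, d2, mul_one, xi]
    rcases fx _ (mul_mem hx hx) (Commute.symm (mul_inv_eq_iff_eq_mul.1 e2)) with q | q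
    · exact absurd q x2
    rw [← q, inv_mul_cancel_left] at e1
    rcases fx x hx (Commute.symm (mul_inv_eq_iff_eq_mul.1 e1)) with r | r
    · exact absurd (by rw [r, mul_one]) x2
    · exact absurd (by rw [r, d2]) x2
  obtain ⟨v, hv, v1, vd⟩ : ∃ v ∈ Om B, v ≠ 1 ∧ v ≠ d := by
    obtain ⟨u, hu, v, hv, u1, v1, uv⟩ := F.four B hB
    by_cases q : u = d
    · exact ⟨v, hv, v1, fun r => uv (q.trans r.symm)⟩
    · exact ⟨u, hu, u1, q⟩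
  obtain ⟨x, hx, x2, x4⟩ := F.ex4' hB
  have s : x * v * (x * v) = x * x := by
    rw [show x * v * (x * v) = x * (v * x) * v by group, (Om_comm hv hx).eq, mul_assoc, mul_assoc, Om_sq hv, mul_one]
  have i1 := inv x hx x2 (Om_sq x4)
  have i2 := inv _ (mul_mem hx hv.1) (s ▸ x2) (s ▸ Om_sq x4)
  have : Commute v a := by
    have e : a * v * a⁻¹ = v := by
      have c := (Om_comm hv (nm an hx)).eq
      rw [show x * v * (a * (x * v) * a⁻¹) = x * (v * (a * x * a⁻¹)) * (a * v * a⁻¹) by group, c, ← mul_assoc x, i1,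
        one_mul] at i2
      rw [← inv_eq_of_mul_eq_one_right i2, Om_inv hv]
    exact Commute.symm (mul_inv_eq_iff_eq_mul.1 e)
  rcases fx v hv.1 this with q | q
  exacts [v1 q, vd q]

theorem Fam.pre_sqN {b : G} (hb : b ∈ B) : b * b ∈ N[B'] := by
  obtain ⟨a, ha, a', ha', an, an', a1, a1', ne⟩ := F.pre_two hB' hB (F.pre_symm hB hB' L)
  have a2 := F.pre_sq hB' hB (F.pre_symm hB hB' L) ha an
  have h1 := F.pre_norm hB hB' L ha an a1 hb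
  have h2 := F.pre_norm hB hB' L ha' an' a1' hb
  have h3 := F.pre_norm hB hB' L (mul_mem ha ha') (mul_mem an an')
    (fun q => ne (by rw [← inv_eq_of_mul_eq_one_right q, inv_eq_of_mul_eq_one_right a2])) hb
  have c := F.comm_DA hB hB' L.ne (mul_mem hb (nm an' hb)) h2 ha an
  have c2 := (F.cm hB hb (nm an hb)).eq
  have := mul_mem (mul_mem h3 (inv_mem h2)) h1
  rwa [show b * (a * a' * b * (a * a')⁻¹) = b * (a * b * a⁻¹)⁻¹ * (a * (b * (a' * b * a'⁻¹))) * a⁻¹ by group, ← c.eq,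
    c2, show b * (a * b * a⁻¹)⁻¹ * (b * (a' * b * a'⁻¹) * a) * a⁻¹ * (b * (a' * b * a'⁻¹))⁻¹ * (a * b * a⁻¹ * b) =
      b * b by group] at this

theorem Fam.pre_cm {b a : G} (hb : b ∈ B) (ha : a ∈ B') (an : a ∈ N[B]) : ⁅b, a⁆ ∈ B ⊓ N[B'] := by
  refine ⟨by simpa [commutatorElement_def, mul_assoc] using mul_mem hb (nm an (inv_mem hb)), ?_⟩
  by_cases a1 : a = 1
  · simp [a1]
  have := mul_mem (F.pre_sqN hB hB' L hb) (inv_mem (F.pre_norm hB hB' L ha an a1 hb))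
  rwa [(F.cm hB hb (nm an hb)).eq, show b * b * (a * b * a⁻¹ * b)⁻¹ = ⁅b, a⁆ by rw [commutatorElement_def]; group] at this

theorem Fam.pre_mem {e : G} : e ∈ (B ⊓ N[B']) ⊔ (B' ⊓ N[B]) ↔ ∃ d ∈ B ⊓ N[B'], ∃ a ∈ B' ⊓ N[B], e = d * a :=
  mem_sup_nm fun _ hd => centralizer_le_normalizer _ (cen_of fun _ ha =>
    F.comm_DA hB hB' L.ne (mem_inf.1 hd).1 (mem_inf.1 hd).2 (mem_inf.1 ha).1 (mem_inf.1 ha).2)

theorem Fam.pre_Esq : ∀ e ∈ (B ⊓ N[B']) ⊔ (B' ⊓ N[B]), e * e = 1 := fun e he => by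
  obtain ⟨d, hd, a, ha, rfl⟩ := (F.pre_mem hB hB' L).1 he
  rw [show d * a * (d * a) = d * (a * d) * a by group, ← (F.comm_DA hB hB' L.ne hd.1 hd.2 ha.1 ha.2).eq,
    show d * (d * a) * a = (d * d) * (a * a) by group, F.pre_sq hB hB' L hd.1 hd.2,
    F.pre_sq hB' hB (F.pre_symm hB hB' L) ha.1 ha.2, mul_one]

theorem Fam.pre_cmE {x e : G} (hx : x ∈ B) (he : e ∈ (B ⊓ N[B']) ⊔ (B' ⊓ N[B])) : ⁅x, e⁆ ∈ B ⊓ N[B'] := by
  obtain ⟨d, hd, a, ha, rfl⟩ := (F.pre_mem hB hB' L).1 he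
  have m := F.pre_cm hB hB' L hx ha.1 ha.2
  rw [show ⁅x, d * a⁆ = (x * d) * x⁻¹ * ⁅x, a⁆ * d⁻¹ by simp only [commutatorElement_def]; group, (F.cm hB hx hd.1).eq,
    mul_inv_cancel_right, (F.cm hB hd.1 m.1).eq, mul_inv_cancel_right]
  exact m

theorem Fam.pre_NE : B ≤ N[(B ⊓ N[B']) ⊔ (B' ⊓ N[B])] := fun x hx => mem_normalizer_fintype fun e he => by
  simpa [commutatorElement_def] using mul_mem (mem_sup_left (F.pre_cmE hB hB' L hx he)) he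

theorem Fam.pre_tr {x : G} (hx : x ∈ B) (hn : x ∉ N[B']) : Tr ((B ⊓ N[B']) ⊔ (B' ⊓ N[B])) B x := by
  refine ⟨F.pre_NE hB hB' L hx, fun e he => ⟨fun c => ?_, fun h => F.cm hB hx h⟩, fun e he => (F.pre_cmE hB hB' L hx he).1⟩
  obtain ⟨d, hd, a, ha, rfl⟩ := (F.pre_mem hB hB' L).1 he
  have : a = 1 := by_contra fun q => hn (F.N_of_comm hB' ha.1 q
    (by simpa using (F.cm hB hx (inv_mem hd.1)).mul_right c))
  rw [this, mul_one]; exact hd.1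

theorem Fam.pre_conj {x x' : G} (hx : x ∈ B) (hn : x ∉ N[B']) (hx' : x' ∈ B') (hn' : x' ∉ N[B]) :
    ∃ g ∈ B ⊔ B', g •ᶜ B = B' ∧ g * x * g⁻¹ * x'⁻¹ ∈ N[B] := by
  have L' := F.pre_symm hB hB' L
  obtain ⟨d, hd, d1, dn⟩ := L.ex
  obtain ⟨a, ha, a1, an⟩ := L'.ex
  obtain ⟨g, hg, e, c⟩ := F.dl hB hB' L.ne (F.pre_Esq hB hB' L) ⟨d, mem_sup_left ⟨hd, dn⟩, hd, d1⟩
    ⟨a, mem_sup_right ⟨ha, an⟩, ha, a1⟩ (F.pre_tr hB hB' L hx hn) (sup_comm (B' ⊓ N[B]) _ ▸ F.pre_tr hB' hB L' hx' hn')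
    (sup_le (F.pre_NE hB hB' L) (sup_comm (B' ⊓ N[B]) _ ▸ F.pre_NE hB' hB L')) (mem_sup_left hx) (mem_sup_right hx')
  exact ⟨g, hg, e, F.N_of_comm hB hd d1 (cen c (mem_sup_left ⟨hd, dn⟩))⟩

theorem Fam.pre_V : Om B ≤ N[B'] := fun v hv => by
  by_contra hn
  have L' := F.pre_symm hB hB' L
  obtain ⟨x', hx', x2⟩ := F.ex4 _ hB'
  obtain ⟨g, -, e, c⟩ := F.pre_conj hB hB' L hv.1 hn hx' (fun q => x2 (F.pre_sq hB' hB L' hx' q))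
  have m : g * v * g⁻¹ ∈ B' := e ▸ cj_mem g hv.1
  have s := F.pre_sq hB' hB L' (mul_mem m (inv_mem hx')) c
  have s2 : g * v * g⁻¹ * (g * v * g⁻¹) = 1 := by
    rw [show g * v * g⁻¹ * (g * v * g⁻¹) = g * (v * v) * g⁻¹ by group, Om_sq hv]; group
  rw [mul_assoc, ← mul_assoc x'⁻¹, (F.cm hB' (inv_mem hx') m).eq, ← mul_assoc, ← mul_assoc, s2, one_mul, ← mul_inv_rev,
    inv_eq_one] at s
  exact x2 s

theorem Fam.pre_eq : B ⊓ N[B'] = Om B :=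
  le_antisymm (fun _ h => (F.mem_Om hB).2 ⟨h.1, F.pre_sq hB hB' L h.1 h.2⟩) (le_inf (Om_le B) (F.pre_V hB hB' L))
end

/-- not type (i) -/
theorem Fam.vc_of_mem (F : Fam 𝓑) (hB : B ∈ 𝓑) (hB' : B' ∈ 𝓑) {b : G} (hb : b ∈ B) (h1 : b ≠ 1) (hn : b ∈ N[B']) :
    Vc B B' := by
  by_cases ne : B = B'
  · exact ne ▸ Vc.refl B
  by_cases c : Cm B B'
  · exact c.vc
  have L : Pre B B' := ⟨ne, c, b, hb, h1, hn⟩
  exact fun v hv => cen_of fun u hu => F.comm_DA hB hB' ne hv.1 (F.pre_V hB hB' L hv) hu.1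
    (F.pre_V hB' hB (F.pre_symm hB hB' L) hu)

theorem Fam.vc_of_comm (F : Fam 𝓑) (hB : B ∈ 𝓑) (hB' : B' ∈ 𝓑) {b b' : G} (hb : b ∈ B) (h1 : b ≠ 1) (hb' : b' ∈ B')
    (h1' : b' ≠ 1) (h : Commute b b') : Vc B B' := F.vc_of_mem hB hB' hb h1 (F.N_of_comm hB' hb' h1' h)
theorem Fam.Om_le_N (F : Fam 𝓑) (hB' : B' ∈ 𝓑) (h : Vc B B') : Om B ≤ N[B'] := fun _ hv =>
  let ⟨_, hu, h1⟩ := F.Om_ne hB'; F.N_of_comm hB' hu.1 h1 (h.comm hv hu)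

theorem card_lt' {H K : Subgroup G} (h : H < K) : Nat.card H < Nat.card K :=
  Set.ncard_lt_ncard h (Set.toFinite _)

theorem Fam.cm_of_two_aux (F : Fam 𝓑) (n : ℕ) : ∀ B ∈ 𝓑, ∀ B' ∈ 𝓑, IsPGroup 2 (B ⊔ B' : Subgroup G) →
    Nat.card (B ⊔ B' : Subgroup G) = n → Cm B B' := by
  induction n using Nat.strong_induction_on with
  | _ n ih =>
  intro B hB B' hB' hP hn
  by_contra nc
  have key : ∀ B ∈ 𝓑, ∀ B' ∈ 𝓑, IsPGroup 2 (B ⊔ B' : Subgroup G) → Nat.card (B ⊔ B' : Subgroup G) = n → ¬ Cm B B' →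
      ∀ g ∈ B ⊔ B', Cm B (g •ᶜ B) := fun B hB B' hB' hP hn nc g hg => by
    obtain ⟨K, hK, h⟩ := exists_ncl hP (fun q => nc (Cm.symm (q.trans (F.comm B hB))))
    have le : B ⊔ g •ᶜ B ≤ K := sup_le (by simpa only [cj_one] using h 1 (one_mem _)) (h g hg)
    exact ih _ (hn ▸ card_lt' (le.trans_lt hK)) B hB _ (F.conj B hB g) (hP.to_le (le.trans hK.le)) rfl
  have k1 := key B hB B' hB' hP hn nc
  have k2 := key B' hB' B hB (sup_comm B B' ▸ hP) (sup_comm B B' ▸ hn) (fun c => nc c.symm)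
  have nle : ¬ B' ≤ N[B] := fun q => let ⟨x, hx, x2⟩ := F.ex4 _ hB'; nc (F.cm_of_mem hB' hB hx x2 (q hx)).symm
  obtain ⟨b, hb, hbn, hb2, -⟩ := pg_exists_fixed_mod (K := B' ⊓ N[B]) (A := ⊥) (F.two _ hB') IsPGroup.of_bot bot_le
    (lt_of_le_of_ne inf_le_left fun e => nle (e ▸ inf_le_right))
    (((F.comm _ hB').trans (centralizer_le inf_le_left)).trans (centralizer_le_normalizer _)) bot_le
  obtain ⟨x, hx, x2⟩ := F.ex4 _ hB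
  have c1 : Commute x (b * x * b⁻¹) := (k1 b (mem_sup_right hb)).comm hx (cj_mem b hx)
  have c2 : Commute b (x⁻¹ * b * x⁻¹⁻¹) := (k2 x⁻¹ (mem_sup_right (inv_mem hx))).comm hb (cj_mem _ hb)
  have m : b * (x * x) * b⁻¹ ∈ B := by
    have := mul_mem (nm hb2.2 hx) hx
    have e1 := (c2.mul_right (Commute.refl b).inv_right).eq
    rwa [show b ^ 2 * x * (b ^ 2)⁻¹ * x = b * x * b⁻¹ * (b * (x⁻¹ * b * x⁻¹⁻¹ * b⁻¹)) * b⁻¹ * x by rw [sq]; group, e1,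
      show b * x * b⁻¹ * (x⁻¹ * b * x⁻¹⁻¹ * b⁻¹ * b) * b⁻¹ * x = b * x * b⁻¹ * x⁻¹ * (b * x * b⁻¹ * x) by group, ← c1.eq,
      show b * x * b⁻¹ * x⁻¹ * (x * (b * x * b⁻¹)) = b * (x * x) * b⁻¹ by group] at this
  exact hbn ⟨hb, cj_eq_iff.1 (F.cj_eq hB hB (mul_mem hx hx) x2 m)⟩

/-- F1: points in a common 2-group commute -/
theorem Fam.cm_of_two (F : Fam 𝓑) (hB : B ∈ 𝓑) (hB' : B' ∈ 𝓑) {P : Subgroup G} (hP : IsPGroup 2 P) (h : B ≤ P)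
    (h' : B' ≤ P) : Cm B B' := F.cm_of_two_aux _ B hB B' hB' (hP.to_le (sup_le h h')) rfl

section
variable (F : Fam 𝓑) (hB : B ∈ 𝓑) (hB' : B' ∈ 𝓑) (L : Ln B B')
include F hB hB' L

theorem Fam.ln_pre : Pre B B' := ⟨L.ne, L.ncm, let ⟨v, hv, h⟩ := F.Om_ne hB; ⟨v, hv.1, h, F.Om_le_N hB' L.vc hv⟩⟩
theorem Fam.ln_eq : B ⊓ N[B'] = Om B := F.pre_eq hB hB' (F.ln_pre hB hB' L)
theorem Fam.ln_tr {x : G} (hx : x ∈ B) (hx' : x ∉ Om B) : Tr (Om B ⊔ Om B') B x := by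
  have := F.pre_tr hB hB' (F.ln_pre hB hB' L) hx (fun q => hx' (F.ln_eq hB hB' L ▸ mem_inf.2 ⟨hx, q⟩))
  rwa [F.ln_eq hB hB' L, F.ln_eq hB' hB L.symm] at this

theorem Fam.ln_N {x : G} (hx : x ∈ B) (hn : x ∈ N[B']) : x ∈ Om B := F.ln_eq hB hB' L ▸ mem_inf.2 ⟨hx, hn⟩

/-- exponent 4 -/
theorem Fam.ln_sq {x : G} (hx : x ∈ B) : x * x ∈ Om B := F.ln_N hB hB' L (mul_mem hx hx) (F.pre_sqN hB hB' (F.ln_pre hB hB' L) hx)

theorem Fam.ln_cm {x u : G} (hx : x ∈ B) (hu : u ∈ Om B') : ⁅u, x⁆ ∈ Om B := by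
  rw [← commutatorElement_inv, ← F.ln_eq hB hB' L]
  exact inv_mem (F.pre_cm hB hB' (F.ln_pre hB hB' L) hx hu.1 (F.Om_le_N hB L.vc.symm hu))

theorem Fam.ln_inj {x u : G} (hx : x ∈ B) (hx' : x ∉ Om B) (hu : u ∈ Om B') (h : Commute x u) : u = 1 := by_contra fun q => hx' (F.ln_N hB hB' L hx (F.N_of_comm hB' hu.1 q h))

theorem Fam.ln_mul {x u u' : G} (hx : x ∈ B) (hu : u ∈ Om B') (hu' : u' ∈ Om B') : ⁅u * u', x⁆ = ⁅u, x⁆ * ⁅u', x⁆ := by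
  rw [show ⁅u * u', x⁆ = (u * ⁅u', x⁆) * u⁻¹ * ⁅u, x⁆ by simp only [commutatorElement_def]; group,
    ← (L.vc.comm (F.ln_cm hB hB' L hx hu') hu).eq, mul_inv_cancel_right,
    (Om_comm (F.ln_cm hB hB' L hx hu') (F.ln_cm hB hB' L hx hu).1).eq]
theorem Fam.ln_inj' {x u u' : G} (hx : x ∈ B) (hx' : x ∉ Om B) (hu : u ∈ Om B') (hu' : u' ∈ Om B')
    (h : ⁅u, x⁆ = ⁅u', x⁆) : u = u' := by
  have := F.ln_inj hB hB' L hx hx' (mul_mem hu hu') (Commute.symm (commutatorElement_eq_one_iff_commute.1 (by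
    rw [F.ln_mul hB hB' L hx hu hu', h, Om_sq (F.ln_cm hB hB' L hx hu')])))
  rw [← Om_inv hu', eq_inv_of_mul_eq_one_left this]

theorem Fam.ln_surj {x v : G} (hx : x ∈ B) (hx' : x ∉ Om B) (hv : v ∈ Om B) : ∃ u ∈ Om B', ⁅u, x⁆ = v := by
  let f : Om B' → Om B := fun u => ⟨⁅(u : G), x⁆, F.ln_cm hB hB' L hx u.2⟩
  have inj : Function.Injective f := fun u u' h =>
    Subtype.ext (F.ln_inj' hB hB' L hx hx' u.2 u'.2 (congrArg Subtype.val h))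
  obtain ⟨u, hu⟩ := (inj.bijective_of_nat_card_le (F.card_Om hB hB').le).2 ⟨v, hv⟩
  exact ⟨u, u.2, congrArg Subtype.val hu⟩

theorem Fam.ln_NE : B ⊔ B' ≤ N[Om B ⊔ Om B'] := by
  have h1 := F.pre_NE hB hB' (F.ln_pre hB hB' L)
  have h2 := F.pre_NE hB' hB (F.ln_pre hB' hB L.symm)
  rw [F.ln_eq hB hB' L, F.ln_eq hB' hB L.symm] at h1 h2
  exact sup_le h1 (sup_comm (Om B') _ ▸ h2)

theorem Fam.ln_fix {x e : G} (hx : x ∈ B) (hx' : x ∉ Om B) (he : e ∈ Om B ⊔ Om B') (h : Commute x e) : e ∈ Om B := (F.mem_Om hB).2 ⟨((F.ln_tr hB hB' L hx hx').fix e he).1 h, by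
    have h1 := F.pre_Esq hB hB' (F.ln_pre hB hB' L)
    rw [F.ln_eq hB hB' L, F.ln_eq hB' hB L.symm] at h1
    exact h1 e he⟩

theorem Fam.ln_CE {x : G} (hx : x ∈ B) (h : x ∈ C[Om B ⊔ Om B']) : x ∈ Om B := let ⟨_, hu, h1⟩ := F.Om_ne hB'; F.ln_N hB hB' L hx (F.N_of_comm hB' hu.1 h1 (cen h (mem_sup_right hu)))

theorem Fam.ln_Ecomm : Om B ⊔ Om B' ≤ C[Om B ⊔ Om B'] := by
  have : ∀ e ∈ Om B ⊔ Om B', ∀ {P}, Vc P B → Vc P B' → ∀ p ∈ Om P, Commute p e := fun e he P h h' p hp => by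
    obtain ⟨v, hv, u, hu, rfl⟩ := L.vc.mem_sup.1 he
    exact (h.comm hp hv).mul_right (h'.comm hp hu)
  exact sup_le (fun v hv => cen_of fun e he => this e he (Vc.refl B) L.vc v hv)
    (fun v hv => cen_of fun e he => this e he L.vc.symm (Vc.refl B') v hv)

theorem Fam.ln_Esq {e : G} (he : e ∈ Om B ⊔ Om B') : e * e = 1 := by
  have h1 := F.pre_Esq hB hB' (F.ln_pre hB hB' L)
  rw [F.ln_eq hB hB' L, F.ln_eq hB' hB L.symm] at h1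
  exact h1 e he

/-- another point on the line -/
theorem Fam.ln_pt {P : Subgroup G} (hP : P ∈ 𝓑) (hle : Om P ≤ Om B ⊔ Om B') (ne : B ≠ P) :
    Ln B P ∧ Om B ⊔ Om P = Om B ⊔ Om B' := by
  have vc : Vc B P := fun v hv => cen_of fun p hp => cen (F.ln_Ecomm hB hB' L (mem_sup_left hv)) (hle hp)
  obtain ⟨x, hx, x2⟩ := F.ex4 B hB
  have hx' : x ∉ Om B := fun q => x2 (Om_sq q)
  have L' : Ln B P := ⟨ne, vc, fun c => by
    obtain ⟨p, hp, p1⟩ := F.Om_ne hP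
    exact p1 (F.eq_one hB hP ne (F.ln_fix hB hB' L hx hx' (hle hp) (c.comm hx hp.1)).1 hp.1)⟩
  refine ⟨L', le_antisymm (sup_le le_sup_left hle) (sup_le le_sup_left fun u hu => ?_)⟩
  obtain ⟨p, hp, e⟩ := F.ln_surj hB hP L' hx hx' (F.ln_cm hB hB' L hx hu)
  have : p⁻¹ * u ∈ Om B := F.ln_fix hB hB' L hx hx' (mul_mem (inv_mem (hle hp)) (mem_sup_right hu)) (by
    change x * (p⁻¹ * u) = p⁻¹ * u * x
    simp only [commutatorElement_def, mul_left_inj] at e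
    rw [show x * (p⁻¹ * u) = p⁻¹ * (p * x * p⁻¹) * u by group, e]; group)
  simpa using mul_mem (mem_sup_right hp : p ∈ Om B ⊔ Om P) (mem_sup_left this)

/-- dihedral lemma -/
theorem Fam.ln_conj {x x' : G} (hx : x ∈ B) (hx1 : x ∉ Om B) (hx' : x' ∈ B') (hx1' : x' ∉ Om B') :
    ∃ g ∈ B ⊔ B', g •ᶜ B = B' ∧ g * x * g⁻¹ * x'⁻¹ ∈ Om B' := by
  obtain ⟨g, hg, e, c⟩ := F.pre_conj hB hB' (F.ln_pre hB hB' L) hx (fun q => hx1 (F.ln_N hB hB' L hx q)) hx'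
    (fun q => hx1' (F.ln_N hB' hB L.symm hx' q))
  exact ⟨g, hg, e, F.ln_N hB' hB L.symm (mul_mem (e ▸ cj_mem g hx) (inv_mem hx')) c⟩

theorem Fam.ln_trans {x y : G} (hx : x ∈ B) (hx1 : x ∉ Om B) (hy : y ∈ B) (hy1 : y ∉ Om B) :
    ∃ g ∈ B ⊔ B', g ∈ N[B] ∧ g * x * g⁻¹ * y⁻¹ ∈ Om B := by
  obtain ⟨x', hx', x2⟩ := F.ex4 _ hB'
  obtain ⟨g, hg, e, c⟩ := F.ln_conj hB hB' L hx hx1 hx' (fun q => x2 (Om_sq q))
  obtain ⟨g', hg', e', c'⟩ := F.ln_conj hB hB' L hy hy1 hx' (fun q => x2 (Om_sq q))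
  refine ⟨g'⁻¹ * g, mul_mem (inv_mem hg') hg, by rw [← cj_eq_iff, ← cj_cj, e, ← e', cj_inv_cj], ?_⟩
  have := mul_mem c (inv_mem c')
  rw [← e', Om_cj, mem_cj] at this
  simpa [mul_assoc] using this

/-- Lemma T: transvections with centre `Om B` are induced by `B` -/
theorem Fam.ln_T {a : G} (hc : a ∈ C[Om B]) (h : ∀ u ∈ Om B', ⁅u, a⁆ ∈ Om B) :
    ∃ x ∈ B, x⁻¹ * a ∈ C[Om B ⊔ Om B'] := by
  have cmE : ∀ e ∈ Om B ⊔ Om B', ⁅a, e⁆ ∈ Om B := fun e he => by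
    obtain ⟨v, hv, u, hu, rfl⟩ := L.vc.mem_sup.1 he
    have m : ⁅a, u⁆ ∈ Om B := by rw [← commutatorElement_inv]; exact inv_mem (h u hu)
    rw [show ⁅a, v * u⁆ = (a * v) * a⁻¹ * ⁅a, u⁆ * v⁻¹ by simp only [commutatorElement_def]; group, (cen hc hv).eq,
      mul_inv_cancel_right]
    exact mul_mem (mul_mem hv m) (inv_mem hv)
  have aN : a ∈ N[Om B ⊔ Om B'] := mem_normalizer_fintype fun e he => by
    simpa [commutatorElement_def] using mul_mem (mem_sup_left (cmE e he)) he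
  by_cases hC : a ∈ C[Om B ⊔ Om B']
  · exact ⟨1, one_mem _, by simpa using hC⟩
  have T : Tr (Om B ⊔ Om B') B a := by
    refine ⟨aN, fun e he => ⟨fun c => ?_, fun q => cen hc ((F.mem_Om hB).2 ⟨q, F.ln_Esq hB hB' L he⟩)⟩,
      fun e he => (cmE e he).1⟩
    obtain ⟨v, hv, u, hu, rfl⟩ := L.vc.mem_sup.1 he
    have : u = 1 := by_contra fun q => hC (by
      have n : a ∈ N[B'] := F.N_of_comm hB' hu.1 q (by simpa using (cen hc (inv_mem hv)).mul_right c)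
      refine cen_of fun e he => ?_
      obtain ⟨v, hv, u, hu, rfl⟩ := L.vc.mem_sup.1 he
      exact (cen hc hv).mul_right (commutatorElement_eq_one_iff_commute.1 (F.eq_one hB hB' L.ne
        (cmE u (mem_sup_right hu)).1 (mul_mem (nm n hu.1) (inv_mem hu.1)))))
    rw [this, mul_one]; exact hv.1
  obtain ⟨x', hx', x2⟩ := F.ex4 _ hB'
  obtain ⟨v, hv, v1⟩ := F.Om_ne hB
  obtain ⟨u, hu, u1⟩ := F.Om_ne hB'
  obtain ⟨g, hg, e, c⟩ := F.dl hB hB' L.ne (fun _ => F.ln_Esq hB hB' L) ⟨v, mem_sup_left hv, hv.1, v1⟩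
    ⟨u, mem_sup_right hu, hu.1, u1⟩ T (sup_comm (Om B') _ ▸ F.ln_tr hB' hB L.symm hx' (fun q => x2 (Om_sq q))) le_rfl aN
    (F.ln_NE hB hB' L (mem_sup_right hx'))
  have xB : g⁻¹ * x' * g ∈ B := mem_cj.1 (e ▸ hx')
  refine ⟨_, xB, ?_⟩
  have := nm' (N_le_NC (mul_mem (F.ln_NE hB hB' L (mem_sup_right hx')) hg)) c
  have e2 := nm' (N_le_NC (F.ln_NE hB hB' L (mem_sup_right hx'))) c
  have e3 := nm' (N_le_NC hg) e2
  simpa [mul_assoc] using e3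

theorem Fam.ln_cE {c l : G} (hc : c ∈ C[Om B ⊔ Om B']) (hl : l ∈ B ⊔ B') : ⁅l, c⁆ ∈ Om B ⊔ Om B' := by
  have NE := F.ln_NE hB hB' L
  let H : Subgroup G :=
    { carrier := {l | l ∈ N[Om B ⊔ Om B'] ∧ ⁅l, c⁆ ∈ Om B ⊔ Om B'}
      one_mem' := ⟨one_mem _, by simp⟩
      mul_mem' := fun {a b} ha hb => ⟨mul_mem ha.1 hb.1, by
        rw [show ⁅a * b, c⁆ = a * ⁅b, c⁆ * a⁻¹ * ⁅a, c⁆ by simp only [commutatorElement_def]; group]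
        exact mul_mem (nm ha.1 hb.2) ha.2⟩
      inv_mem' := fun {a} ha => ⟨inv_mem ha.1, by
        rw [show ⁅a⁻¹, c⁆ = a⁻¹ * ⁅a, c⁆⁻¹ * a by simp only [commutatorElement_def]; group]
        exact nm' ha.1 (inv_mem ha.2)⟩ }
  have key : ∀ {B B'}, B ∈ 𝓑 → B' ∈ 𝓑 → Ln B B' → c ∈ C[Om B ⊔ Om B'] → ∀ x ∈ B, ⁅x, c⁆ ∈ Om B :=
    fun {B B'} hB hB' L hc x hx => by
      obtain ⟨v, hv, v1⟩ := F.Om_ne hB
      have n := F.N_of_comm hB hv.1 v1 (cen hc (mem_sup_left hv))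
      exact F.ln_CE hB hB' L (by simpa [commutatorElement_def, mul_assoc] using mul_mem hx (nm n (inv_mem hx)))
        (mul_mem (nm (N_le_NC (F.ln_NE hB hB' L (mem_sup_left hx))) hc) (inv_mem hc))
  have : B ⊔ B' ≤ H := sup_le (fun x hx => ⟨NE (mem_sup_left hx), mem_sup_left (key hB hB' L hc x hx)⟩)
    (fun x hx => ⟨NE (mem_sup_right hx), mem_sup_right (key hB' hB L.symm (sup_comm (Om B) _ ▸ hc) x hx)⟩)
  exact (this hl).2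

omit [Finite G] F hB hB' in
theorem cen_E {c : G} (h : c ∈ C[Om B]) (h' : c ∈ C[Om B']) : c ∈ C[Om B ⊔ Om B'] := cen_of fun e he => by
  obtain ⟨v, hv, u, hu, rfl⟩ := L.vc.mem_sup.1 he
  exact (cen h hv).mul_right (cen h' hu)
omit [Finite G] F hB hB' L in
theorem cen_sup {c : G} (h : c ∈ C[B]) (h' : c ∈ C[B']) : c ∈ C[B ⊔ B'] := cen_of fun _ he =>
  Commute.symm (mem_centralizer_singleton_iff.1 ((sup_le (fun _ hx => mem_centralizer_singleton_iff.2 (cen h hx).symm.eq)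
    (fun _ hx => mem_centralizer_singleton_iff.2 (cen h' hx).symm.eq) : B ⊔ B' ≤ C1[c]) he))

/-- Lemma S -/
theorem Fam.ln_S {c : G} (hc : c ∈ C[Om B']) (hc' : c ∈ C[B]) : ∃ v ∈ Om B, v * c ∈ C[B ⊔ B'] := by
  obtain ⟨x, hx, x2⟩ := F.ex4 _ hB
  obtain ⟨x', hx', x2'⟩ := F.ex4 _ hB'
  obtain ⟨g, hg, e, -⟩ := F.ln_conj hB hB' L hx (fun q => x2 (Om_sq q)) hx' (fun q => x2' (Om_sq q))
  obtain ⟨v, hv, u, hu, k⟩ := L.vc.mem_sup.1 (F.ln_cE hB hB' L (cen_E L (centralizer_le (Om_le B) hc') hc) hg)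
  refine ⟨v, hv, cen_sup (mul_mem (Om_cent B hv) hc') ?_⟩
  have m : g * c * g⁻¹ ∈ C[B'] := by rw [← e, mem_cen_cj]; simpa [mul_assoc] using hc'
  have : v * c = u⁻¹ * (g * c * g⁻¹) := by
    rw [show g * c * g⁻¹ = ⁅g, c⁆ * c by rw [commutatorElement_def]; group, k, (L.vc.comm hv hu).eq]; group
  rw [this]; exact mul_mem (inv_mem (Om_cent _ hu)) m

/-- an element of `C(Om B)` acts trivially on `B/Om B`; commutators with `B` are invariant -/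
theorem Fam.ln_phi {g x u : G} (hc : g ∈ C[Om B]) (hx : x ∈ B) (hu : u ∈ Om B') : ⁅g * u * g⁻¹, x⁆ = ⁅u, x⁆ := by
  obtain ⟨v, hv, v1⟩ := F.Om_ne hB
  have n := F.N_of_comm hB hv.1 v1 (cen hc hv)
  have m := nm' n hx
  have hw : x⁻¹ * (g⁻¹ * x * g) ∈ Om B := (F.mem_Om hB).2 ⟨mul_mem (inv_mem hx) m, by
    rw [mul_assoc, ← mul_assoc _ x⁻¹, (F.cm hB m (inv_mem hx)).eq,
      show x⁻¹ * (x⁻¹ * (g⁻¹ * x * g) * (g⁻¹ * x * g)) = (x * x)⁻¹ * g⁻¹ * (x * x * g) by group,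
      ← (cen hc (F.ln_sq hB hB' L hx)).eq]; group⟩
  calc ⁅g * u * g⁻¹, x⁆ = g * (u * x * ((x⁻¹ * (g⁻¹ * x * g)) * u⁻¹) * (x⁻¹ * (g⁻¹ * x * g))⁻¹ * x⁻¹) * g⁻¹ := by
        rw [commutatorElement_def]; group
    _ = g * ⁅u, x⁆ * g⁻¹ := by rw [(L.vc.comm hw (inv_mem hu)).eq, commutatorElement_def]; group
    _ = _ := by rw [(cen hc (F.ln_cm hB hB' L hx hu)).eq, mul_inv_cancel_right]
theorem Fam.ln_EQ' {g : G} (hn : g ∈ N[B']) (hc : g ∈ C[Om B]) : g ∈ C[Om B'] := cen_of fun u hu => by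
  obtain ⟨x, hx, x2⟩ := F.ex4 _ hB
  exact mul_inv_eq_iff_eq_mul.1 (F.ln_inj' hB hB' L hx (fun q => x2 (Om_sq q)) (nm (N_le_NOm _ hn) hu) hu
    (F.ln_phi hB hB' L hc hx hu))

/-- Lemma C0 -/
theorem Fam.ln_C0 {c u : G} (hc : c ∈ C[B]) (hu : u ∈ Om B') (h1 : u ≠ 1) (h : Commute c u) : c ∈ C[Om B'] := F.ln_EQ' hB hB' L (F.N_of_comm hB' hu.1 h1 h) (centralizer_le (Om_le B) hc)

/-- Lemma EQ -/
theorem Fam.ln_EQ {g : G} (hE : g ∈ N[Om B ⊔ Om B']) (hc : g ∈ C[Om B]) {u : G} (hu : u ∈ Om B') :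
    ⁅u, g⁆ ∈ Om B := by
  obtain ⟨x, hx, x2⟩ := F.ex4 _ hB
  obtain ⟨v, hv, u', hu', e⟩ := L.vc.mem_sup.1 (nm hE (mem_sup_right hu))
  have h1 := F.ln_phi hB hB' L hc hx hu
  rw [e, show ⁅v * u', x⁆ = v * ⁅u', x⁆ * (x * v⁻¹) * x⁻¹ by simp only [commutatorElement_def]; group,
    ← (Om_comm (inv_mem hv) hx).eq, (Om_comm hv (F.ln_cm hB hB' L hx hu').1).eq,
    show ⁅u', x⁆ * v * (v⁻¹ * x) * x⁻¹ = ⁅u', x⁆ by group] at h1
  rw [F.ln_inj' hB hB' L hx (fun q => x2 (Om_sq q)) hu' hu h1] at e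
  rw [show ⁅u, g⁆ = u * (g * u * g⁻¹)⁻¹ by rw [commutatorElement_def]; group, e]
  simpa using inv_mem hv

end

/-- centre lemma: an involution swapping two points of a line fixes a point of it -/
theorem Fam.centre (F : Fam 𝓑) (hB : B ∈ 𝓑) {y : G} (hy : y * y = 1) (L : Ln B (y •ᶜ B)) :
    ∃ P ∈ 𝓑, Om P ≤ Om B ⊔ Om (y •ᶜ B) ∧ y ∈ N[P] ∧
      (y ∈ C[Om P] → (∀ u ∈ Om B, ⁅u, y⁆ ∈ Om P) ∧ ∀ p ∈ Om P, ∃ u ∈ Om B, ⁅u, y⁆ = p) := by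
  have hB' := F.conj B hB y
  have yi : y⁻¹ = y := inv_eq_of_mul_eq_one_right hy
  have yN : y ∈ N[Om B ⊔ Om (y •ᶜ B)] := by
    rw [← cj_eq_iff, cj_sup, ← Om_cj, ← Om_cj, cj_cj, hy, cj_one, sup_comm]
  obtain ⟨x, hx, x2⟩ := F.ex4 _ hB
  obtain ⟨v, hv, v1⟩ := F.Om_ne hB
  obtain ⟨h, hh, n⟩ := F.dl_swap hB yN (by rw [hy]; exact one_mem _) L.ne (fun _ => F.ln_Esq hB hB' L)
    ⟨v, mem_sup_left hv, hv.1, v1⟩ (F.ln_tr hB hB' L hx fun q => x2 (Om_sq q))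
  have le : Om (h •ᶜ B) ≤ Om B ⊔ Om (y •ᶜ B) := by
    rw [Om_cj, ← cj_eq_iff.2 hh]; exact cj_mono le_sup_left
  refine ⟨_, F.conj B hB h, le, n, fun hc => ?_⟩
  have sur : ∀ p ∈ Om (h •ᶜ B), ∃ u ∈ Om B, ⁅u, y⁆ = p := fun p hp => by
    obtain ⟨v, hv, u, hu, rfl⟩ := L.vc.mem_sup.1 (le hp)
    rw [Om_cj] at hu
    obtain ⟨u, hu, rfl⟩ := hu
    change v * (y * u * y⁻¹) ∈ _ at hp
    have c := (cen hc hp).eq
    have m : y * u * y⁻¹ ∈ Om (y •ᶜ B) := by rw [Om_cj]; exact cj_mem y hu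
    have m' : y * v * y⁻¹ ∈ Om (y •ᶜ B) := by rw [Om_cj]; exact cj_mem y hv
    have : v⁻¹ * u = 1 := F.eq_one hB hB' L.ne (mul_mem (inv_mem hv.1) hu.1) (by
      have e : v⁻¹ * u = (y * u * y⁻¹) * (y * v * y⁻¹)⁻¹ := by
        have e1 : y * v * y⁻¹ * u = v * (y * u * y⁻¹) := by
          calc y * v * y⁻¹ * u = y * (v * (y * u * y⁻¹)) * y := by
                rw [yi, mul_assoc y (v * _), mul_assoc v, mul_assoc (y * u), hy]; group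
            _ = _ := by rw [c, mul_assoc _ y y, hy, mul_one]
        rw [eq_mul_inv_iff_mul_eq, mul_assoc, (L.vc.comm hu m').eq, e1]; group
      rw [e]; exact mul_mem m.1 (inv_mem m'.1))
    rw [inv_mul_eq_one] at this
    exact ⟨u, hu, by rw [this, commutatorElement_def, Om_inv hu]; change _ = u * (y * u * y⁻¹); group⟩
  refine ⟨fun u hu => ?_, sur⟩
  have : (Om (h •ᶜ B) : Set G) = (fun u => ⁅u, y⁆) '' (Om B : Set G) :=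
    Set.eq_of_subset_of_ncard_le (fun p hp => sur p hp) ((Set.ncard_image_le (Set.toFinite _)).trans
      (F.card_Om hB (F.conj B hB h)).le) (Set.toFinite _)
  rw [← SetLike.mem_coe, this]; exact ⟨u, hu, rfl⟩

/-- `centre` for a point involution -/
theorem Fam.centre' (F : Fam 𝓑) (hB : B ∈ 𝓑) (hB' : B' ∈ 𝓑) (nv : ¬ Vc B B') {y : G} (hy : y ∈ Om B') (h1 : y ≠ 1)
    (L : Ln B (y •ᶜ B)) : ∃ P ∈ 𝓑, Ln P B ∧ Vc P B' ∧ Om P ≤ Om B ⊔ Om (y •ᶜ B) ∧ ∀ u ∈ Om B, ⁅u, y⁆ ∈ Om P := by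
  obtain ⟨P, hP, le, n, k⟩ := F.centre hB (Om_sq hy) L
  have vc := F.vc_of_mem hB' hP hy.1 h1 n
  exact ⟨P, hP, (F.ln_pt hB (F.conj B hB y) L hP le (fun e => nv (e ▸ vc.symm))).1.symm, vc.symm, le, (k (vc hy)).1⟩

theorem Fam.triOf (F : Fam 𝓑) (hB : B ∈ 𝓑) (hB' : B' ∈ 𝓑) (nv : ¬ Vc B B')
    (h : ∀ y ∈ Om B', y ≠ 1 → Ln B (y •ᶜ B)) (h' : ∀ y ∈ Om B, y ≠ 1 → Ln B' (y •ᶜ B')) :
    ∃ P ∈ 𝓑, Tri P B B' ∧ ∀ y ∈ Om B', y ≠ 1 → Om P ≤ Om B ⊔ Om (y •ᶜ B) := by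
  have c1 := fun y hy h1 => F.centre' hB hB' nv hy h1 (h y hy h1)
  have c2 := fun y hy h1 => F.centre' hB' hB (fun c => nv c.symm) hy h1 (h' y hy h1)
  obtain ⟨u, hu, u1⟩ := F.Om_ne hB
  obtain ⟨t, ht, t1⟩ := F.Om_ne hB'
  have key : ∀ {P P' u t}, P ∈ 𝓑 → P' ∈ 𝓑 → u ∈ Om B → u ≠ 1 → t ∈ Om B' → t ≠ 1 → ⁅u, t⁆ ∈ Om P → ⁅t, u⁆ ∈ Om P' →
      P = P' := fun hP hP' hu u1 ht t1 a b => F.ti _ hP _ hP' _ a.1 (by rw [← commutatorElement_inv]; exact inv_mem b.1)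
        (fun q => nv (F.vc_of_comm hB hB' hu.1 u1 ht.1 t1 (commutatorElement_eq_one_iff_commute.1 q)))
  obtain ⟨P, hP, l1, -, -, k1⟩ := c1 t ht t1
  obtain ⟨P', hP', l2, -, -, k2⟩ := c2 u hu u1
  obtain rfl := key hP hP' hu u1 ht t1 (k1 u hu) (k2 t ht)
  have all : ∀ y ∈ Om B', y ≠ 1 → Om P ≤ Om B ⊔ Om (y •ᶜ B) ∧ ∀ u ∈ Om B, ⁅u, y⁆ ∈ Om P := fun y hy y1 => by
    obtain ⟨P', hP', -, -, le, k⟩ := c1 y hy y1
    rw [← key hP' hP hu u1 hy y1 (k u hu) (k2 y hy)]; exact ⟨le, k⟩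
  refine ⟨P, hP, ⟨l1, l2, nv, fun u hu t ht => ?_⟩, fun y hy y1 => (all y hy y1).1⟩
  by_cases t1 : t = 1
  · simp [t1]
  · exact (all t ht t1).2 u hu

end Cfsg.Lib.TIB
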